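import Cfsg.Agent.H8.MaxTS

set_option autoImplicit false

namespace CfsgH8

open QuadraticMap Module Matrix

variable {F : Type*} [Field F]

lemma exists_diagInv [Fintype F] (hq : Odd (Fintype.card F)) {m : ℕ} (i : ℕ) (him : i ≤ m) :
    ∃ g : OG (QP m F), (∀ x k, g.1 x k = (if (Sum.elim (fun j : Fin m => (j : ℕ))
      (fun j : Fin m => (j : ℕ)) k) < i then (-1 : F) else 1) * x k) ∧
      (g ∈ commutator (OG (QP m F)) ↔ Fintype.card F ^ i % 4 = 1) := by
  have h2 := two_ne_zero_of_odd hq
  have hG : Good (QP m F) := good_of_two_ne h2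
  obtain ⟨g, hg, h1, h3⟩ := exists_diag hG (fun j : Fin m => if (j : ℕ) < i then (-1 : F) else 1)
    (fun j => by split_ifs <;> simp)
  refine ⟨g, fun x k => ?_, ?_⟩
  · rw [hg]
    rcases k with k | k <;> by_cases hk : (k : ℕ) < i <;> simp [hk]
  · rw [mem_commutator_iff ND_QH hG, h1, h3, Finset.prod_ite, Finset.prod_const, Finset.prod_const,
      Fin.card_filter_val_lt, min_eq_right him, one_pow, mul_one, chi_pow (by simp),
      chi_neg_one_pow_eq_one_iff h2, pow_mod_four_eq_one_iff hq]
    simp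

end CfsgH8
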