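import Cfsg.Agent.H8.Root
import Cfsg.Agent.H8.BaseChange

set_option autoImplicit false

namespace CfsgH8

open QuadraticMap Module

/-- the additive character of the field with two elements -/
def psi (a : ZMod 2) : ℤ := if a = 0 then 1 else -1

lemma psi_add (a b : ZMod 2) : psi (a + b) = psi a * psi b := by revert a b; decide

lemma psi_one : psi 1 = -1 := rfl

lemma psi_zero : psi 0 = 1 := rfl

variable {V V₁ V₂ : Type*} [AddCommGroup V] [Module (ZMod 2) V] [AddCommGroup V₁]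
  [Module (ZMod 2) V₁] [AddCommGroup V₂] [Module (ZMod 2) V₂] [Fintype V] [Fintype V₁] [Fintype V₂]

/-- the Gauss sum of a quadratic form over the field with two elements -/
def gs (Q : QuadraticForm (ZMod 2) V) : ℤ := ∑ v, psi (Q v)

lemma Iso.gs_eq {Q₁ : QuadraticForm (ZMod 2) V₁} {Q₂ : QuadraticForm (ZMod 2) V₂}
    (h : Iso Q₁ Q₂) : gs Q₁ = gs Q₂ := by
  obtain ⟨e, he⟩ := h
  exact Fintype.sum_equiv e.toEquiv _ _ fun x => congrArg psi (he x).symm

lemma ODec.gs_eq {Q₁ : QuadraticForm (ZMod 2) V₁} {Q₂ : QuadraticForm (ZMod 2) V₂}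
    {Q : QuadraticForm (ZMod 2) V} (D : ODec Q₁ Q₂ Q) : gs Q = gs Q₁ * gs Q₂ := by
  rw [gs, gs, gs, Finset.sum_mul_sum, ← Fintype.sum_prod_type', eq_comm]
  exact Fintype.sum_equiv D.e.toEquiv _ _ fun x => by
    rw [← psi_add, ← D.he]; rfl

lemma gs_QP (m : ℕ) : gs (QP m (ZMod 2)) = 2 ^ m := by
  induction m with
  | zero => simp [gs, QH_apply, psi]
  | succ m ih =>
    rw [(iso_QP_succ m).gs_eq, (sumDec _ _).gs_eq, ih, pow_succ]
    congr 1

lemma aniso_one_one : Aniso (1 : ZMod 2) 1 := by decide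

lemma gs_QM (m : ℕ) : gs (QM m (ZMod 2) 1 1) = -2 ^ (m + 1) := by
  rw [QM, (sumDec _ _).gs_eq, gs_QP, pow_succ, ← mul_neg]
  congr 1

lemma gs_eq_or {Q : QuadraticForm (ZMod 2) V} (hQ : ND Q) {m : ℕ}
    (hn : finrank (ZMod 2) V = 2 * m) : (Iso (QP m (ZMod 2)) Q ∧ gs Q = 2 ^ m) ∨
      (1 ≤ m ∧ Iso (QM (m - 1) (ZMod 2) 1 1) Q ∧ gs Q = -2 ^ m) := by
  refine (hQ.classify_even hn aniso_one_one).imp (fun h => ⟨h, by rw [← h.gs_eq, gs_QP]⟩)
    fun h => ⟨h.1, h.2, ?_⟩
  rw [← h.2.gs_eq, gs_QM, Nat.sub_add_cancel h.1]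

lemma iso_QP_iff_gs {Q : QuadraticForm (ZMod 2) V} (hQ : ND Q) {m : ℕ}
    (hn : finrank (ZMod 2) V = 2 * m) : Iso (QP m (ZMod 2)) Q ↔ 0 < gs Q := by
  refine ⟨fun h => by rw [← h.gs_eq, gs_QP]; positivity, fun h => ?_⟩
  rcases gs_eq_or hQ hn with h1 | h1
  · exact h1.1
  · rw [h1.2.2] at h
    exact absurd h (by simp)

lemma iso_QM_iff_gs {Q : QuadraticForm (ZMod 2) V} (hQ : ND Q) {m : ℕ}
    (hn : finrank (ZMod 2) V = 2 * (m + 1)) : Iso (QM m (ZMod 2) 1 1) Q ↔ gs Q < 0 := by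
  refine ⟨fun h => by rw [← h.gs_eq, gs_QM]; simp, fun h => ?_⟩
  rcases gs_eq_or hQ hn with h1 | h1
  · rw [h1.2] at h
    exact absurd h (by simp)
  · exact h1.2.1

lemma gs_shift {Q Q' : QuadraticForm (ZMod 2) V} {w : V} (h : ∀ v, Q' v = Q v + polar Q v w) :
    gs Q' = psi (Q w) * gs Q := by
  rw [gs, gs, Finset.mul_sum]
  refine Fintype.sum_equiv (Equiv.addRight w) _ _ fun v => ?_
  rw [Equiv.coe_addRight, ← psi_add, Q_add, h]
  congr 1
  linear_combination -CharTwo.add_self_eq_zero (Q w)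

lemma card_zero_eq (Q : QuadraticForm (ZMod 2) V) :
    2 * (Nat.card {v // Q v = 0} : ℤ) = Fintype.card V + gs Q := by
  classical
  rw [Nat.card_eq_fintype_card, Fintype.card_subtype, Finset.card_filter, Fintype.card_eq_sum_ones,
    gs]
  push_cast
  rw [Finset.mul_sum, ← Finset.sum_add_distrib]
  refine Finset.sum_congr rfl fun v _ => ?_
  unfold psi
  split_ifs <;> rfl

omit [Fintype V] in
/-- a function with the given polarisation is a quadratic form -/
lemma exists_quad_of_polar (Q : QuadraticForm (ZMod 2) V) (q : V → ZMod 2)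
    (hq : ∀ u v, q (u + v) = q u + q v + (Q (u + v) - Q u - Q v)) :
    ∃ Q' : QuadraticForm (ZMod 2) V, ⇑Q' = q ∧ ∀ u v, polar Q' u v = polar Q u v := by
  have hp : ∀ u v, polar q u v = polar Q u v := fun u v => by simp only [polar, hq u v]; ring
  have h0 : q 0 = 0 := by simpa using hq 0 0
  refine ⟨QuadraticMap.ofPolar q (fun a x => ?_) (fun x y z => ?_) fun a x y => ?_, rfl, hp⟩
  · rcases (by decide : ∀ a : ZMod 2, a = 0 ∨ a = 1) a with rfl | rfl <;> simp [h0]
  · simp only [hp, polar_add_left]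
  · simp only [hp, polar_smul_left]

omit [Fintype V] in
lemma ND.of_polar_eq {Q Q' : QuadraticForm (ZMod 2) V} (hQ : ND Q)
    (h : ∀ u v, polar Q' u v = polar Q u v) : ND Q' :=
  ND.of_forall fun _ hx => hQ.eq_zero fun y => by rw [← h, hx]

lemma exists_shift {Q Q' : QuadraticForm (ZMod 2) V} (hQ : ND Q)
    (h : ∀ u v, polar Q' u v = polar Q u v) : ∃ w, ∀ v, Q' v = Q v + polar Q v w := by
  let d : Module.Dual (ZMod 2) V :=
    { toFun := fun v => Q' v - Q v
      map_add' := fun x y => by simp only [Q_add, h]; ring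
      map_smul' := fun a x => by
        rcases (by decide : ∀ a : ZMod 2, a = 0 ∨ a = 1) a with rfl | rfl <;> simp }
  obtain ⟨w, hw⟩ := hQ.exists_dual d
  exact ⟨w, fun v => by rw [pcomm, ← hw]; simp [d]⟩

section stab
variable {F W : Type*} [Field F] [AddCommGroup W] [Module F W] {Q : QuadraticForm F W}

/-- The action of the stabiliser of a singular vector `e` on `e^⊥ / e`. -/
theorem exists_stab_hom [FiniteDimensional F W] {G : Type*} [Group G] (ρ : G →* OG Q) {e f : W}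
    (he : Q e = 0) (hf : Q f = 0) (h : polar Q e f = 1) (hρ : ∀ g, (ρ g).1 e = e) :
    ∃ φ : G →* OG (res Q (perp2 Q e f)), ∀ g x,
      ((φ g).1 x : W) = (ρ g).1 x - polar Q f ((ρ g).1 x) • e := by
  have h1 : ∀ g (x : perp2 Q e f), polar Q e ((ρ g).1 x) = 0 := fun g x => by
    have := OG.map_polar (ρ g) e x
    rwa [hρ, (mem_perp2.1 x.2).1] at this
  let L : G → Module.End F (perp2 Q e f) := fun g =>
    { toFun := fun x => ⟨(ρ g).1 x - polar Q f ((ρ g).1 x) • e, by
        simpa [h1] using proj_mem_perp2 he hf h ((ρ g).1 x)⟩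
      map_add' := fun x y => Subtype.ext (by simp [add_smul]; abel)
      map_smul' := fun a x => Subtype.ext (by simp [smul_sub, mul_smul]) }
  have hL : ∀ g x, (L g x : W) = (ρ g).1 x - polar Q f ((ρ g).1 x) • e := fun _ _ => rfl
  have hm : ∀ g g', L (g * g') = L g * L g' := fun g g' => LinearMap.ext fun x => Subtype.ext (by
    simp [hL, hρ, pcomm f e, h, sub_smul])
  have h0 : L 1 = 1 := LinearMap.ext fun x => Subtype.ext (by simp [hL, (mem_perp2.1 x.2).2])
  let φ : G →* OG (res Q (perp2 Q e f)) :=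
    { toFun := fun g => ⟨LinearEquiv.ofLinearMap (L g) (L g⁻¹)
        (by rw [← Module.End.mul_eq_comp, ← hm, mul_inv_cancel, h0]; rfl)
        (by rw [← Module.End.mul_eq_comp, ← hm, inv_mul_cancel, h0]; rfl), fun x => by
          change Q (L g x : W) = Q x
          rw [hL, Q_sub, Q_smul, he, polar_sr, pcomm _ e, h1]; simp⟩
      map_one' := OG.ext' fun x => LinearMap.congr_fun h0 x
      map_mul' := fun g g' => OG.ext' fun x => LinearMap.congr_fun (hm g g') x }
  exact ⟨φ, hL⟩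

end stab

end CfsgH8
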