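import Cfsg.Agent.H8.Mat
import Cfsg.Agent.H1.JForm2

set_option autoImplicit false
set_option linter.unusedSectionVars false

namespace CfsgH8

open QuadraticMap Module Matrix CfsgH1

/-- the coefficients of an invariant alternating form on a Jordan block of even size -/
noncomputable def cc (n i j : ℕ) : ℤ :=
  if i + j < n then (-1) ^ i * Ring.choose (((n / 2 : ℕ) : ℤ) - 1 - i) (n - 1 - (i + j)) else 0

lemma cc_of_le {n i j : ℕ} (h : n ≤ i + j) : cc n i j = 0 := if_neg (by omega)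

lemma cc_rec (n i j : ℕ) : cc n (i + 1) j + cc n i (j + 1) + cc n (i + 1) (j + 1) = 0 := by
  unfold cc
  rcases lt_trichotomy (i + j + 2) n with h | h | h
  · rw [if_pos (by omega), if_pos (by omega), if_pos (by omega),
      show n - 1 - (i + 1 + j) = n - 1 - (i + 1 + (j + 1)) + 1 by omega,
      show n - 1 - (i + (j + 1)) = n - 1 - (i + 1 + (j + 1)) + 1 by omega,
      show ((n / 2 : ℕ) : ℤ) - 1 - i = ((n / 2 : ℕ) : ℤ) - 1 - (i + 1 : ℕ) + 1 by push_cast; ring,
      Ring.choose_succ_succ]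
    ring
  · rw [if_pos (by omega), if_pos (by omega), if_neg (by omega),
      show n - 1 - (i + 1 + j) = 0 by omega, show n - 1 - (i + (j + 1)) = 0 by omega,
      Ring.choose_zero_right, Ring.choose_zero_right]
    ring
  · rw [if_neg (by omega), if_neg (by omega), if_neg (by omega)]; rfl

lemma cc_self {n : ℕ} (hn : Even n) (i : ℕ) : cc n i i = 0 := by
  obtain ⟨m, rfl⟩ := hn
  unfold cc
  split_ifs with h
  · rw [show (((m + m) / 2 : ℕ) : ℤ) - 1 - i = (m - 1 - i : ℕ) by omega, Ring.choose_natCast,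
      Nat.choose_eq_zero_of_lt (by omega)]
    simp
  · rfl

lemma cc_swap {n : ℕ} (hn : Even n) (i j : ℕ) : cc n j i = -cc n i j := by
  obtain ⟨m, rfl⟩ := hn
  unfold cc
  rw [add_comm j i]
  split_ifs with h
  · obtain ⟨b, hb⟩ : ∃ b, m + m - 1 - (i + j) = b := ⟨_, rfl⟩
    rw [hb, show (((m + m) / 2 : ℕ) : ℤ) - 1 - i = -(i + 1 - m) by omega, Ring.choose_neg,
      show (i + 1 - m + b - 1 : ℤ) = ((m + m) / 2 : ℕ) - 1 - j by omega, Units.smul_def,
      Int.coe_negOnePow_natCast, smul_eq_mul]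
    have : (-1 : ℤ) ^ (i + b + j + 1) = 1 := Even.neg_one_pow ⟨m, by omega⟩
    have h2 : (-1 : ℤ) ^ j * (-1) ^ j = 1 := by rw [← mul_pow]; simp
    rw [pow_succ, pow_add, pow_add] at this
    have h3 : (-1 : ℤ) ^ j = -((-1) ^ i * (-1) ^ b) := by
      linear_combination (-(-1 : ℤ) ^ j) * this - ((-1) ^ i * (-1) ^ b) * h2
    rw [h3]; ring
  · rfl

lemma cc_top {n : ℕ} (hn : Even n) (h : 1 ≤ n) : cc n (n - 1) 0 = -1 := by
  unfold cc
  rw [if_pos (by omega), show n - 1 - (n - 1 + 0) = 0 by omega, Ring.choose_zero_right,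
    (Nat.Even.sub_odd h hn odd_one).neg_one_pow, mul_one]

variable {κ : Type*} [Fintype κ] [DecidableEq κ] {d : κ → ℕ} {F : Type*} [Field F]

lemma InvF.add' {H H' : Matrix (JI d) (JI d) F} (h : InvF H) (h' : InvF H') : InvF (H + H') := by
  unfold InvF at *
  rw [Matrix.mul_add _ H, Matrix.add_mul, h, h']

lemma exists_even_form (hd : ∀ k, 1 ≤ d k) : ∃ H : Matrix (JI d) (JI d) F, InvF H ∧ AltM H ∧
    ∀ i, Ymat hd H i = if Even i then -1 else 0 := by
  let f : κ → κ → ℕ → ℕ → F := fun k l i j => if k = l ∧ Even (d k) then cc (d k) i j else 0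
  let H : Matrix (JI d) (JI d) F := Matrix.of fun a b => f a.1 b.1 a.2 b.2
  have f1 : ∀ k l i j, d l ≤ j → f k l i j = 0 := fun k l i j h => by
    simp only [f]
    split_ifs with h'
    · rw [cc_of_le (by rw [h'.1]; omega), Int.cast_zero]
    · rfl
  have f2 : ∀ k l i j, f l k j i = -f k l i j := fun k l i j => by
    simp only [f]
    by_cases h : k = l ∧ Even (d k)
    · obtain ⟨rfl, h⟩ := h
      simp only [h, and_self, if_true, cc_swap h i j, Int.cast_neg]
    · rw [if_neg h, if_neg (fun h' : l = k ∧ Even (d l) => h ⟨h'.1.symm, h'.1 ▸ h'.2⟩), neg_zero]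
  have key : ∀ g : κ → κ → ℕ → ℕ → F, (∀ k l i j, d l ≤ j → g k l i j = 0) →
      (Matrix.of fun a b : JI d => g a.1 b.1 a.2 b.2) * nilJ d F =
        Matrix.of fun a b : JI d => g a.1 b.1 a.2 (b.2 + 1) := fun g hg => by
    ext a b
    rw [mul_shJ]
    split_ifs with h
    · rfl
    · exact (hg _ _ _ _ (by omega)).symm
  have k1 : (nilJ d F)ᵀ * H = Matrix.of fun a b : JI d => f a.1 b.1 (a.2 + 1) b.2 := by
    have := key (fun k l i j => f l k j i) fun k l i j h => by rw [f2, f1 _ _ _ _ h, neg_zero]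
    exact (transpose_mul _ _).symm.trans (congrArg transpose this)
  refine ⟨H, ?_, altM_of_skew (by ext a b; exact f2 _ _ _ _) fun a => ?_, fun i => ?_⟩
  · rw [InvF, transpose_add, transpose_one, Matrix.add_mul, Matrix.one_mul, k1, Matrix.mul_add,
      Matrix.mul_one, Matrix.add_mul, key f f1,
      key (fun k l i j => f k l (i + 1) j) fun k l i j => f1 _ _ _ _]
    ext a b
    simp only [Matrix.add_apply, of_apply, H, f]
    split_ifs with h
    · have := congrArg (Int.cast : ℤ → F) (cc_rec (d a.1) a.2 b.2)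
      push_cast at this
      linear_combination this
    · simp
  · simp only [H, f, of_apply]
    split_ifs with h
    · rw [cc_self h.2, Int.cast_zero]
    · rfl
  · ext ⟨a, rfl⟩ ⟨b, hb⟩
    simp only [Ymat, H, f, of_apply, botJ, revJ_fst, revJ_snd, topJ]
    by_cases h : Even (d a)
    · by_cases hab : a = b
      · subst hab
        simp [h, cc_top h (hd a)]
      · simp [h, hab]
    · simp [h]

lemma exists_glue' (X : ∀ i, Matrix (Fb d i) (Fb d i) F) :
    ∃ Z : Matrix κ κ F, ∀ i (a b : Fb d i), Z a.1 b.1 = X i a b := by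
  classical
  have hI : ∀ k, d k ∈ Finset.univ.image d := fun k => Finset.mem_image_of_mem _ (Finset.mem_univ k)
  obtain ⟨Z, hZ⟩ := exists_glue hI fun i => X i
  exact ⟨Z, fun i a b => hZ ⟨i, a.2 ▸ hI a.1⟩ a b⟩

lemma exists_half {ι : Type*} [Fintype ι] [DecidableEq ι] (h : Even (Fintype.card ι)) :
    ∃ Y : Matrix ι ι F, IsUnit (Y - Yᵀ) := by
  obtain ⟨j, hj⟩ := h
  let e : Fin j ⊕ Fin j ≃ ι := Fintype.equivOfCardEq (by simp [hj])
  refine ⟨reindexAlgEquiv F F e (fromBlocks 0 0 1 0), ?_⟩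
  convert (CfsgH7.isUnit_J (m := j) (F := F)).map (reindexAlgEquiv F F e)
  ext a b
  obtain ⟨a, rfl⟩ := e.surjective a
  obtain ⟨b, rfl⟩ := e.surjective b
  rcases a with a | a <;> rcases b with b | b <;> simp [J, one_apply, eq_comm]

theorem exists_invF_alt (hd : ∀ k, 1 ≤ d k) (hp : ∀ i, Odd i → Even (mulJ d i)) :
    ∃ H : Matrix (JI d) (JI d) F, InvF H ∧ IsUnit H ∧ AltM H := by
  obtain ⟨H₁, a1, a2, a3⟩ := exists_even_form (F := F) hd
  have hX : ∀ i, ∃ Y : Matrix (Fb d i) (Fb d i) F,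
      IsUnit ((if Even i then -1 else 0) + (Y - (-1 : F) ^ (i - 1) • Yᵀ)) := fun i => by
    rcases Nat.even_or_odd i with h | h
    · exact ⟨0, by simp [h]⟩
    · obtain ⟨Y, hY⟩ := exists_half (F := F) (ι := Fb d i) (card_Fb (d := d) i ▸ hp i h)
      exact ⟨Y, by
        rwa [if_neg (Nat.not_even_iff_odd.2 h), zero_add, (Nat.Odd.sub_odd h odd_one).neg_one_pow,
          one_smul]⟩
  choose X hX using hX
  obtain ⟨Z, hZ⟩ := exists_glue' X
  have h0 := invF_secM (F := F) hd Z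
  have h1 := InvF.add' a1 (h0.sub h0.transpose)
  refine ⟨_, h1, (h1.isUnit_iff hd).2 fun i => ?_, fun v => ?_⟩
  · have e1 : Ymat hd ((secM d Z * cJ d F).submatrix (revJ d) id) i = X i := by
      ext a b; rw [Ymat_secM, hZ]
    change IsUnit (Ymat hd H₁ i + (Ymat hd ((secM d Z * cJ d F).submatrix (revJ d) id) i -
      Ymat hd ((secM d Z * cJ d F).submatrix (revJ d) id)ᵀ i))
    rw [h0.Ymat_transpose, e1, a3]
    exact hX i
  · rw [add_mulVec, dotProduct_add, a2, sub_mulVec, dotProduct_sub, mulVec_transpose,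
      dotProduct_comm v (v ᵥ* _), ← dotProduct_mulVec, sub_self, add_zero]

theorem exists_invF_symm (h2 : (2 : F) ≠ 0) (hd : ∀ k, 1 ≤ d k)
    (hp : ∀ i, Even i → 0 < i → Even (mulJ d i)) :
    ∃ H : Matrix (JI d) (JI d) F, InvF H ∧ IsUnit (H + Hᵀ) := by
  have hX : ∀ i, ∃ Y : Matrix (Fb d i) (Fb d i) F, IsUnit (Y + (-1 : F) ^ (i - 1) • Yᵀ) :=
    fun i => by
    rcases Nat.eq_zero_or_pos i with rfl | h0
    · have : IsEmpty (Fb d 0) := ⟨fun k => by have := hd k.1; have := k.2; omega⟩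
      exact ⟨0, isUnit_of_subsingleton _⟩
    rcases Nat.even_or_odd i with h | h
    · obtain ⟨Y, hY⟩ := exists_half (F := F) (ι := Fb d i) (card_Fb (d := d) i ▸ hp i h h0)
      exact ⟨Y, by rwa [(Nat.Even.sub_odd h0 h odd_one).neg_one_pow, neg_one_smul,
        ← sub_eq_add_neg]⟩
    · refine ⟨1, ?_⟩
      rw [(Nat.Odd.sub_odd h odd_one).neg_one_pow, one_smul, transpose_one, ← two_smul F,
        ← Algebra.algebraMap_eq_smul_one]
      exact h2.isUnit.map _
  choose X hX using hX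
  obtain ⟨Z, hZ⟩ := exists_glue' X
  have h0 := invF_secM (F := F) hd Z
  refine ⟨_, h0, ((InvF.add' h0 h0.transpose).isUnit_iff hd).2 fun i => ?_⟩
  have e1 : Ymat hd ((secM d Z * cJ d F).submatrix (revJ d) id) i = X i := by
    ext a b; rw [Ymat_secM, hZ]
  change IsUnit (Ymat hd ((secM d Z * cJ d F).submatrix (revJ d) id) i +
    Ymat hd ((secM d Z * cJ d F).submatrix (revJ d) id)ᵀ i)
  rw [h0.Ymat_transpose, e1]
  exact hX i

lemma InvF.even_mulJ_symm (h2 : (2 : F) ≠ 0) (hd : ∀ k, 1 ≤ d k) {H : Matrix (JI d) (JI d) F}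
    (h : InvF H) (hu : IsUnit H) (hs : Hᵀ = H) {i : ℕ} (hi : Even i) (h0 : 0 < i) :
    Even (mulJ d i) := by
  have := h.Ymat_transpose hd i
  rw [hs, (Nat.Even.sub_odd h0 hi odd_one).neg_one_pow, neg_one_smul] at this
  rw [← card_Fb]
  exact even_card_of_altM ((h.isUnit_iff hd).1 hu i) (altM_of_skew_two h2 (by
    conv_rhs => rw [this, neg_neg]))

lemma exists_gram {ι : Type*} [Fintype ι] [DecidableEq ι] {Q : QuadraticForm F (ι → F)} (hQ : ND Q) :
    ∃ H : Matrix ι ι F, IsUnit H ∧ Hᵀ = H ∧ (∀ u v, u ⬝ᵥ H *ᵥ v = polar Q u v) ∧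
      ∀ A : Matrix ι ι F, (∀ v, Q (A *ᵥ v) = Q v) → Aᵀ * H * A = H := by
  have h : ∀ u v, u ⬝ᵥ LinearMap.BilinForm.toMatrix' (polarBilin Q) *ᵥ v = polar Q u v :=
    fun u v => by
      rw [← Matrix.toBilin'_apply', Matrix.toBilin'_toMatrix']; rfl
  refine ⟨LinearMap.BilinForm.toMatrix' (polarBilin Q), ?_, ?_, h, fun A hA => ?_⟩
  · rw [← mulVec_injective_iff_isUnit]
    intro u v huv
    exact hQ.ext fun y => by rw [pcomm, pcomm v, ← h, ← h, huv]
  · ext i j; exact pcomm _ _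
  · refine isom_toLin'_iff.1 fun u v => ?_
    rw [Matrix.toBilin'_apply', Matrix.toBilin'_apply', h, h]
    simp only [toLin'_apply, polar, ← mulVec_add, hA]

lemma ND.congr' {V W : Type*} [AddCommGroup V] [Module F V] [AddCommGroup W] [Module F W]
    {Q : QuadraticForm F W} (hQ : ND Q) (φ : V ≃ₗ[F] W) : ND (Q.comp φ.toLinearMap) :=
  ND.of_forall fun x hx => φ.map_eq_zero_iff.1 (hQ.eq_zero fun y => by
    obtain ⟨y, rfl⟩ := φ.surjective y
    simpa [polar] using hx y)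

theorem orth_model {n t : ℕ} {d : Fin t → ℕ} (hsum : ∑ k, d k = n) :
    (∃ Q : QuadraticForm F (Fin n → F), (QuadraticMap.polarBilin Q).Nondegenerate ∧
      ∃ e : ((k : Fin t) × Fin (d k)) ≃ Fin n, ∃ A : ↥(Cfsg.isometryGroup F ⇑Q),
        IsConj (Matrix.reindex e e (Cfsg.jordanTypeMatrix d F))
          ((A : GL (Fin n) F) : Matrix (Fin n) (Fin n) F)) ↔
      ∃ Q : QuadraticForm F (JI d → F), ND Q ∧ ∀ v, Q ((1 + nilJ d F) *ᵥ v) = Q v := by
  rw [jordanTypeMatrix_eq]
  constructor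
  · rintro ⟨Q, hQ, e, A, P, hP⟩
    let φ : (JI d → F) ≃ₗ[F] (Fin n → F) :=
      (LinearEquiv.funCongrLeft F F e.symm).trans (glEquiv _ F P)
    refine ⟨Q.comp φ.toLinearMap, ND.congr' hQ φ, fun v => ?_⟩
    have : φ ((1 + nilJ d F) *ᵥ v) = A.1.1 *ᵥ φ v := by
      simp only [φ, LinearEquiv.trans_apply, glEquiv_apply, mulVec_mulVec]
      rw [← hP.eq, ← mulVec_mulVec, reindex_apply, submatrix_mulVec_equiv]
      congr 1
      ext j
      simp only [LinearEquiv.funCongrLeft_apply, LinearMap.funLeft_apply, Function.comp_apply]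
      congr 1
      ext k; simp [LinearMap.funLeft_apply]
    rw [QuadraticMap.comp_apply, QuadraticMap.comp_apply, LinearEquiv.coe_coe, this]
    exact mem_isometryGroup.1 A.2 _
  · rintro ⟨Q, hQ, h⟩
    let e : JI d ≃ Fin n := Fintype.equivOfCardEq (by rw [card_JI, hsum, Fintype.card_fin])
    let φ := LinearEquiv.funCongrLeft F F e
    refine ⟨Q.comp φ.toLinearMap, ND.congr' hQ φ, e,
      ⟨((isUnit_unip (d := d) (F := F)).map (reindexAlgEquiv F F e)).unit,
        mem_isometryGroup.2 fun v => ?_⟩, IsConj.refl _⟩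
    rw [QuadraticMap.comp_apply, QuadraticMap.comp_apply, ← h (φ.toLinearMap v)]
    congr 1
    ext j
    simp [φ, submatrix_mulVec_equiv, LinearMap.funLeft_apply]
    rfl

end CfsgH8
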