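import Cfsg.Agent.H8.Cnt
import Cfsg.Agent.H1.OrdR

set_option autoImplicit false
set_option linter.unusedSectionVars false

namespace CfsgH8

open QuadraticMap Module Matrix CfsgH1 Subgroup

theorem card_inv_fun_zero {K : Type*} [Field K] [Fintype K] (U : Subgroup Kˣ) (n : ℕ) :
    Nat.card {f : K → ℕ // (∑ k, f k = n ∧ ∀ u ∈ U, ∀ k, f (u * k) = f k) ∧ f 0 = 0} =
      if Nat.card U ∣ n then (n / Nat.card U + (Fintype.card K - 1) / Nat.card U - 1).choose
        ((Fintype.card K - 1) / Nat.card U - 1) else 0 := by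
  classical
  have hU : 0 < Nat.card U := Nat.card_pos
  have ht : Fintype.card (Kˣ ⧸ U) = (Fintype.card K - 1) / Nat.card U := by
    rw [← Fintype.card_units, ← Nat.card_eq_fintype_card (α := Kˣ),
      Subgroup.card_eq_card_quotient_mul_card_subgroup U, Nat.mul_div_cancel _ hU,
      Nat.card_eq_fintype_card]
  have hout : ∀ f : K → ℕ, (∀ u ∈ U, ∀ k, f (u * k) = f k) → ∀ g : Kˣ,
      f (QuotientGroup.mk g : Kˣ ⧸ U).out = f g := fun f hf g => by
    obtain ⟨u, hu⟩ := QuotientGroup.mk_out_eq_mul U g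
    rw [hu, mul_comm, Units.val_mul, hf _ u.2]
  have hsum : ∀ f : K → ℕ, (∀ u ∈ U, ∀ k, f (u * k) = f k) →
      ∑ k, f k = f 0 + Nat.card U * ∑ y : Kˣ ⧸ U, f y.out := fun f hf => by
    rw [sum_field_units, ← sum_comp_mk U fun y => f y.out]
    simp only [hout f hf]
  split_ifs with hd
  · obtain ⟨N, rfl⟩ := hd
    have h0 : 0 < Fintype.card (Kˣ ⧸ U) := Fintype.card_pos
    rw [← ht, Nat.mul_div_cancel_left _ hU, Nat.choose_symm_of_eq_add (b := N) (by omega),
      add_comm N, ← card_fun_sum_eq]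
    refine Nat.card_congr ⟨fun f => ⟨fun y => f.1 y.out, ?_⟩,
      fun c => ⟨fun k => if h : k = 0 then 0 else c.1 (QuotientGroup.mk (Units.mk0 k h)),
        ⟨?_, fun u hu k => ?_⟩, by simp⟩,
      fun f => Subtype.ext (funext fun k => ?_), fun c => Subtype.ext (funext fun y => ?_)⟩
    · have := hsum _ f.2.1.2
      rw [f.2.1.1, f.2.2, zero_add] at this
      exact (Nat.eq_of_mul_eq_mul_left hU this).symm
    · rw [sum_field_units]
      simp only [dite_true, Units.ne_zero, dite_false, Units.mk0_val]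
      rw [sum_comp_mk, c.2, zero_add]
    · by_cases h : k = 0
      · simp [h]
      · simp only
        rw [dif_neg h, dif_neg (mul_ne_zero u.ne_zero h)]
        refine congrArg c.1 ?_
        rw [eq_comm, QuotientGroup.eq]
        convert hu using 1
        ext; simp
    · by_cases h : k = 0
      · simp only [h, dite_true, f.2.2]
      · simp only [h, dite_false]
        rw [hout _ f.2.1.2]; rfl
    · simp
  · rw [Nat.card_eq_zero]
    exact Or.inl ⟨fun f => hd ⟨_, by rw [← f.2.1.1, hsum _ f.2.1.2, f.2.2, zero_add]⟩⟩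

variable {F E : Type*} [Field F] [Field E] {ι κ : Type*} [Fintype ι] [DecidableEq ι] [Fintype κ]
  [DecidableEq κ]

theorem card_classes_side [Finite F] [DecidableEq E] {G : Type*} [Group G] {r : ℕ} [Fact r.Prime]
    (ε : F →+* E) {ζ : E} (hζ : IsPrimitiveRoot ζ r) (ρ : G →* Matrix ι ι F)
    (hρ : Function.Injective ρ) (u : (ZMod r)ˣ) (hι : 0 < Fintype.card ι) (P : Prop) [Decidable P]
    (hconj : ∀ g h, g ^ r = 1 → IsConj (ρ g) (ρ h) → IsConj g h)
    (hinv : ∀ g s, g ^ r = 1 → (∀ a ∈ s, a ^ r = 1) → IsDg ε (ρ g) s → (s.count 1 = 0 → P) ∧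
      ∀ k : ZMod r, s.count (CfsgH1.chi ζ ((u : ZMod r) * k)) = s.count (CfsgH1.chi ζ k))
    (hex : ∀ s : Multiset E, s.card = Fintype.card ι → (∀ a ∈ s, a ^ r = 1) →
      (∀ k : ZMod r, s.count (CfsgH1.chi ζ ((u : ZMod r) * k)) = s.count (CfsgH1.chi ζ k)) →
      (s.count 1 = 0 → P) → ∃ g, IsDg ε (ρ g) s) :
    Nat.card {C : ConjClasses G // ∃ g, ConjClasses.mk g = C ∧ orderOf g = r} =
      (Fintype.card ι / orderOf u + (r - 1) / orderOf u).choose ((r - 1) / orderOf u) - 1 -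
        if orderOf u ∣ Fintype.card ι ∧ ¬ P then
          (Fintype.card ι / orderOf u + (r - 1) / orderOf u - 1).choose ((r - 1) / orderOf u - 1)
        else 0 := by
  classical
  have hr := (Fact.out : r.Prime).pos
  have hpow : ∀ g s, IsDg ε (ρ g) s → (g ^ r = 1 ↔ ∀ a ∈ s, a ^ r = 1) := fun g s h => by
    rw [← hρ.eq_iff, map_pow, _root_.map_one]
    simpa using h.pow_eq_smul_iff r 1
  have hdg : ∀ g, g ^ r = 1 → ∃ s, IsDg ε (ρ g) s := fun g hg =>
    exists_isDg_pow ε hr hζ one_ne_zero (α := 1) (by simp) (by rw [← map_pow, hg]; simp)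
  choose! s hs using hdg
  let T := {f : ZMod r → ℕ // ∑ k, f k = Fintype.card ι ∧
    ∀ v ∈ Subgroup.zpowers u, ∀ k : ZMod r, f ((v : ZMod r) * k) = f k}
  let f₀ : T := ⟨fun k => if k = 0 then Fintype.card ι else 0, by simp, by simp⟩
  have hT := card_inv_fun (Subgroup.zpowers u) (Fintype.card ι)
  have hT0 := card_inv_fun_zero (Subgroup.zpowers u) (Fintype.card ι)
  rw [Nat.card_zpowers, ZMod.card] at hT hT0
  have hone : ∀ g s, (∀ a ∈ s, a ^ r = 1) → IsDg ε (ρ g) s →
      (g = 1 ↔ (fun k : ZMod r => s.count (CfsgH1.chi ζ k)) = f₀.1) := fun g s h1 h => by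
    rw [← hρ.eq_iff, _root_.map_one, h.eq_one_iff]
    constructor
    · intro h2
      ext k
      by_cases hk : k = 0
      · simp only [hk, f₀, if_true, chi_zero, ← h.card_eq]
        exact Multiset.count_eq_card.2 fun a ha => (h2 a ha).symm
      · simp only [hk, f₀, if_false]
        exact Multiset.count_eq_zero_of_notMem fun h3 =>
          hk (chi_inj hζ ((h2 _ h3).trans chi_zero.symm))
    · intro h2 a ha
      have := congrFun h2 0
      simp only [f₀, if_true, chi_zero, ← h.card_eq] at this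
      exact (Multiset.count_eq_card.1 this a ha).symm
  rw [card_classes_of_inv (fun g : G => orderOf g = r)
    (fun g (k : ZMod r) => (s g).count (CfsgH1.chi ζ k))
    (fun f : ZMod r → ℕ => (∑ k, f k = Fintype.card ι ∧
      ∀ v ∈ Subgroup.zpowers u, ∀ k : ZMod r, f ((v : ZMod r) * k) = f k) ∧
        (f ≠ f₀.1 ∧ (f 0 = 0 → P))), ← hT]
  · haveI : Finite T := Nat.finite_of_card_ne_zero (by
      rw [hT]; exact (Nat.choose_pos (Nat.le_add_left _ _)).ne')
    haveI := Fintype.ofFinite T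
    rw [← Nat.card_congr (Equiv.subtypeSubtypeEquivSubtypeInter _ _)] at hT0 ⊢
    change Nat.card {f : T // f.1 0 = 0} = _ at hT0
    change Nat.card {f : T // f.1 ≠ f₀.1 ∧ (f.1 0 = 0 → P)} = Nat.card T - 1 - _
    by_cases hP : P
    · simp only [ne_eq, Subtype.val_inj, hP, implies_true, and_true, not_true, and_false, if_false]
      rw [Nat.card_eq_fintype_card, Fintype.card_subtype_compl, Nat.card_eq_fintype_card]
      simp
    · simp only [hP, not_false_eq_true, and_true, ← hT0, imp_false, ← not_or, ne_eq,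
        Subtype.val_inj]
      rw [Nat.card_eq_fintype_card, Fintype.card_subtype_compl, Nat.card_eq_fintype_card,
        Nat.card_eq_fintype_card, Fintype.card_subtype_or_disjoint, Nat.sub_sub]
      · simp
      · rw [Pi.disjoint_iff]
        rintro f x h1 h2 hx
        have h3 := h2 hx
        rw [h1 hx] at h3
        simp only [f₀, if_true] at h3
        omega
  · intro g hg
    obtain ⟨h1, h2⟩ := orderOf_eq_prime_iff'.1 hg
    have h3 := (hpow g _ (hs g h1)).1 h1
    have h4 := hinv g _ h1 h3 (hs g h1)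
    refine ⟨⟨?_, (inv_zpowers_iff u fun k => (s g).count (CfsgH1.chi ζ k)).2 h4.2⟩,
      fun h => h2 ((hone g _ h3 (hs g h1)).2 h), by simpa only [chi_zero] using h4.1⟩
    rw [← card_msOf (ζ := ζ), msOf_count hζ h3, (hs g h1).card_eq]
  · intro g h hg hh
    have h1 := (orderOf_eq_prime_iff'.1 hg).1
    have h2 := (orderOf_eq_prime_iff'.1 hh).1
    refine ⟨fun hc => by rw [(hs g h1).eq_of_isConj (hs h h2) (ρ.map_isConj hc)], fun he => ?_⟩
    have := ms_ext_chi hζ ((hpow g _ (hs g h1)).1 h1) ((hpow h _ (hs h h2)).1 h2) (congrFun he)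
    exact hconj g h h1 ((hs g h1).isConj (this ▸ hs h h2))
  · rintro f ⟨⟨h1, h2⟩, h3, h3'⟩
    have h4 := pow_of_mem_msOf hζ f
    obtain ⟨g, hg⟩ := hex (msOf ζ f) (by rw [card_msOf, h1]) h4 (fun k => by
      rw [count_msOf hζ, count_msOf hζ, (inv_zpowers_iff u _).1 h2]) (by
        rwa [← count_msOf hζ f 0, chi_zero] at h3')
    have h5 := (hpow g _ hg).2 h4
    have h6 : (fun k : ZMod r => (msOf ζ f).count (CfsgH1.chi ζ k)) = f :=
      funext (count_msOf hζ f)
    refine ⟨g, orderOf_eq_prime_iff'.2 ⟨h5, fun h => h3 ?_⟩, ?_⟩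
    · rw [← h6]; exact (hone g _ h4 hg).1 h
    · rw [(hs g h5).unique hg, h6]

lemma isDg_of_equiv {ε : F →+* E} {A : Matrix κ κ F} {B : Matrix ι ι F} {s : Multiset E}
    (h : IsDg ε A s) (e : (κ → F) ≃ₗ[F] (ι → F)) (he : ∀ v, e (A *ᵥ v) = B *ᵥ e v) :
    IsDg ε B s := by
  have hc : Fintype.card κ = Fintype.card ι := by simpa using e.finrank_eq
  let σ := Fintype.equivOfCardEq hc
  let e' : (ι → F) ≃ₗ[F] (ι → F) := (LinearEquiv.funCongrLeft F F σ).trans e
  refine (h.reindex σ).of_isConj ⟨⟨LinearMap.toMatrix' e'.toLinearMap,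
    LinearMap.toMatrix' e'.symm.toLinearMap, by rw [← LinearMap.toMatrix'_comp]; simp,
    by rw [← LinearMap.toMatrix'_comp]; simp⟩, ?_⟩
  refine Matrix.ext_of_mulVec_single fun i => ?_
  simp only [← Matrix.mulVec_mulVec, LinearMap.toMatrix'_mulVec, e', LinearEquiv.coe_coe,
    LinearEquiv.trans_apply, ← he, reindex_apply, submatrix_mulVec_equiv]
  congr 1
  ext j
  simp [LinearMap.funLeft_apply]
  rfl

lemma isDg_fromBlocks {ε : F →+* E} {A : Matrix κ κ F} {B : Matrix ι ι F} {s t : Multiset E}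
    (h : IsDg ε A s) (h' : IsDg ε B t) : IsDg ε (fromBlocks A 0 0 B) (s + t) := by
  obtain ⟨d, rfl, P, hP⟩ := h
  obtain ⟨d', rfl, P', hP'⟩ := h'
  refine ⟨Sum.elim d d', ?_, ⟨fromBlocks P 0 0 P', fromBlocks (P⁻¹).1 0 0 (P'⁻¹).1,
    by simp [fromBlocks_multiply], by simp [fromBlocks_multiply]⟩, ?_⟩
  · rw [← Finset.univ_disjSum_univ, Finset.val_disjSum, Multiset.map_disjSum]; rfl
  · rw [← fromBlocks_diagonal, fromBlocks_map]
    show _ * _ = _ * _
    simp only [fromBlocks_multiply, hP.eq, hP'.eq, Matrix.map_zero _ (map_zero ε), Matrix.mul_zero,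
      Matrix.zero_mul, add_zero, zero_add]

lemma isDg_one (ε : F →+* E) :
    IsDg ε (1 : Matrix ι ι F) (Multiset.replicate (Fintype.card ι) 1) :=
  ⟨fun _ => 1, by simp, by simp⟩

lemma fpf_of_count [DecidableEq E] {ε : F →+* E} {A : Matrix ι ι F} {s : Multiset E}
    (h : IsDg ε A s) (h1 : s.count 1 = 0) (x : ι → F) (hx : A *ᵥ x = x) : x = 0 := by
  have h2 : s.count 1 + (A.map ε - (1 : E) • 1).rank = Fintype.card ι := by
    convert h.count_add 1
  rw [h1, zero_add, show A.map ε - (1 : E) • 1 = (A - 1).map ε by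
    rw [one_smul, Matrix.map_sub _ (map_sub ε), Matrix.map_one _ (map_zero ε) (_root_.map_one ε)],
    rank_map_ringHom] at h2
  exact mulVec_injective_iff_isUnit.2 (isUnit_of_rank h2.ge) (by simp [sub_mulVec, hx])

/-- an invariant alternating form gives an invariant quadratic form -/
lemma exists_quad_of_alt {A H : Matrix κ κ F} (hH : IsUnit H) (ha : AltM H) (h : Aᵀ * H * A = H)
    (hA : ∀ x, A *ᵥ (A *ᵥ x) = x → x = 0) :
    ∃ Q : QuadraticForm F (κ → F), ND Q ∧ ∀ x, Q (A *ᵥ x) = Q x := by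
  let Q : QuadraticForm F (κ → F) := LinearMap.BilinMap.toQuadraticMap (Matrix.toBilin' (H * A))
  have hQ : ∀ x, Q x = x ⬝ᵥ H *ᵥ (A *ᵥ x) := fun x => by
    simp [Q, Matrix.toBilin'_apply']
  have h1 : ∀ x y, (A *ᵥ x) ⬝ᵥ H *ᵥ (A *ᵥ y) = x ⬝ᵥ H *ᵥ y := fun x y => by rw [dot_mul_mul, h]
  have h2 : ∀ x y, x ⬝ᵥ H *ᵥ y = -(y ⬝ᵥ H *ᵥ x) := fun x y => by
    rw [dotProduct_mulVec, ← mulVec_transpose, ha.transpose_eq, neg_mulVec, neg_dotProduct,
      dotProduct_comm]
  refine ⟨Q, ND.of_forall fun x hx => hA x ?_, fun x => by rw [hQ, hQ, h1]⟩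
  have hu := isUnit_of_isom hH h
  rw [← sub_eq_zero]
  refine mulVec_injective_iff_isUnit.2 hH ?_
  rw [mulVec_zero, ← dotProduct_eq_zero_iff]
  intro y
  obtain ⟨y, rfl⟩ := mulVec_surjective_iff_isUnit.2 hu y
  have := hx y
  simp only [polar, hQ, mulVec_add, add_dotProduct, dotProduct_add] at this
  rw [dotProduct_comm, mulVec_sub, dotProduct_sub, h1, h2 (A *ᵥ y) x]
  linear_combination this

variable {ι : Type} [Fintype ι] [DecidableEq ι]

theorem card_classes_orth [Fintype F] {Q : QuadraticForm F (ι → F)} {q : (ι → F) → F} (h : ⇑Q = q)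
    (hQ : ND Q) (hι : 0 < Fintype.card ι) {r : ℕ} [Fact r.Prime] (hr2 : r ≠ 2) (hrF : (r : F) ≠ 0)
    (P : Prop) [Decidable P] (hP : ∀ A : OG Q, A ^ r = 1 → (∀ x, A.1 x = x → x = 0) → P)
    (hP' : ∀ (κ : Type) [Fintype κ] (Q' : QuadraticForm F (κ → F)) (A : OG Q'), ND Q' →
      Fintype.card κ = Fintype.card ι → Even (Fintype.card κ) → A ^ r = 1 →
      (∀ x, A.1 x = x → x = 0) → P → Iso Q' Q)
    {u v : (ZMod r)ˣ} (hu : (u : ZMod r) = Fintype.card F) (hv : v = u ∨ v = -u)
    (h3 : u ∈ zpowers v) (h4 : -1 ∈ zpowers v) :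
    Nat.card {C : ConjClasses (Cfsg.isometryGroup F q) //
        ∃ g, ConjClasses.mk g = C ∧ orderOf g = r} =
      (Fintype.card ι / orderOf v + (r - 1) / orderOf v).choose ((r - 1) / orderOf v) - 1 -
        if orderOf v ∣ Fintype.card ι ∧ ¬ P then
          (Fintype.card ι / orderOf v + (r - 1) / orderOf v - 1).choose ((r - 1) / orderOf v - 1)
        else 0 := by
  classical
  have hr : r.Prime := Fact.out
  have hro := hr.odd_of_ne_two hr2
  obtain ⟨E, _, _, D, ζ, hτ, hζ⟩ := exists_fext F hrF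
  have key : ∀ s : Multiset E, (∀ a ∈ s, a ^ r = 1) → (s.map D.τ = s ↔ ∀ k : ZMod r,
      s.count (CfsgH1.chi ζ ((u : ZMod r) * k)) = s.count (CfsgH1.chi ζ k)) := fun s hs =>
    map_eq_iff_count hζ hs D.τ.injective _ u.mulLeft.surjective fun k => by
      rw [hτ, ← CfsgH1.chi_mul hζ, ← hu]
  have key2 : ∀ s : Multiset E, (∀ a ∈ s, a ^ r = 1) → (s.map (·⁻¹) = s ↔ ∀ k : ZMod r,
      s.count (CfsgH1.chi ζ (((-1 : (ZMod r)ˣ) : ZMod r) * k)) = s.count (CfsgH1.chi ζ k)) :=
    fun s hs => map_eq_iff_count hζ hs inv_injective _ (-1 : (ZMod r)ˣ).mulLeft.surjective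
      fun k => by rw [← chi_neg hζ]; simp
  refine card_classes_side D.ε hζ ((Units.coeHom _).comp (Cfsg.isometryGroup F q).subtype)
    (Units.val_injective.comp Subtype.val_injective) v hι P (fun g g' hg hc => ?_)
    (fun g s hg hs hd => ⟨fun h1 => hP (toOG h g) (by rw [← map_pow, hg, _root_.map_one])
      (fpf_of_count hd h1), fun k => ?_⟩) fun s h1 hs h5 h6 => ?_
  · obtain ⟨x, hx⟩ := hc
    have := conj_of_lin hQ (A := toOG h g) (B := toOG h g') (N := r)
      (by rw [← map_pow, hg, _root_.map_one]) hro hrF (glEquiv _ F x) fun y => by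
        simp only [toOG_apply, glEquiv_apply, Matrix.mulVec_mulVec]
        exact congrArg (· *ᵥ y) hx.eq
    simpa using (toOG h).symm.toMonoidHom.map_isConj this
  · have e1 := (key s hs).1 hd.map_τ
    rcases hv with rfl | rfl
    · exact e1 k
    · have e2 : s.map (·⁻¹) = s := by
        have a1 : IsDg D.ε (g⁻¹).1.1 (s.map (·⁻¹)) :=
          hd.inv (congrArg (fun x => x.1.1) (mul_inv_cancel g))
        have a2 : IsDg D.ε g.1.1ᵀ s := IsDg.transpose hd
        refine a1.unique (isDg_of_equiv a2 ((dotProductEquiv F ι).trans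
          (LinearMap.BilinForm.toDual (polarBilin Q) hQ).symm) fun y => hQ.ext fun z => ?_)
        have b1 : ∀ (d : Module.Dual F (ι → F)) z,
            polar Q ((LinearMap.BilinForm.toDual (polarBilin Q) hQ).symm d) z = d z := fun d z =>
          LinearMap.BilinForm.apply_toDual_symm_apply (hB := hQ) _ _
        have b2 := OG.polar_inv' (toOG h g)
        simp only [← _root_.map_inv, toOG_apply] at b2
        rw [← b2, LinearEquiv.trans_apply, LinearEquiv.trans_apply, b1, b1]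
        simp [dotProduct_mulVec, mulVec_transpose]
      rw [← e1 k, ← (key2 s hs).1 e2 (u * k)]; simp
  · have e := (inv_zpowers_iff v fun k => s.count (CfsgH1.chi ζ k)).2 h5
    have e1 := (key s hs).2 (e _ h3)
    have e2 := (key2 s hs).2 (e _ h4)
    let s' := s.filter (· ≠ 1)
    have hs' : s = s' + Multiset.replicate (s.count 1) 1 := by
      rw [← Multiset.filter_eq', add_comm, Multiset.filter_add_not]
    have f1 : ∀ ψ : E → E, Function.Injective ψ → ψ 1 = 1 → s.map ψ = s → s'.map ψ = s' :=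
      fun ψ h7 h8 h9 => by
        show _ = s.filter _
        conv_rhs => rw [← h9, Multiset.filter_map]
        congr 1
        exact Multiset.filter_congr fun a _ => by rw [Function.comp_apply, ← h8, h7.ne_iff, h8]
    have f2 : ∀ a ∈ s', a ≠ 0 ∧ (a ^ 2 = 1 → a = 1) := fun a ha => by
      have := hs a (Multiset.mem_of_mem_filter ha)
      refine ⟨fun h0 => by simp [h0, hr.ne_zero] at this, fun h5 => ?_⟩
      obtain ⟨k, hk⟩ := hro
      rwa [hk, pow_succ, pow_mul, h5, one_pow, one_mul] at this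
    have f3 : s'.count 1 = 0 := by simp [s']
    obtain ⟨A₀, H₀, a1, a2, a3, a4⟩ := D.exists_isDg_alt (f1 _ D.τ.injective (_root_.map_one _) e1)
      (f1 _ inv_injective inv_one e2) f2 (by simp [f3])
    let σ := Fintype.equivFin s'.toEnumFinset
    let ρ := Matrix.reindexAlgEquiv F F σ
    have a1' : IsDg D.ε (ρ A₀) s' := a1.reindex σ
    have a2' : IsUnit (ρ H₀) := a2.map ρ
    have a3' : AltM (ρ H₀) := altM_of_skew (by
      ext i j; exact congrFun (congrFun a3.transpose_eq _) _) fun i => a3.diag _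
    have a4' : (ρ A₀)ᵀ * ρ H₀ * ρ A₀ = ρ H₀ := by
      conv_rhs => rw [← a4, _root_.map_mul, _root_.map_mul]
      rfl
    generalize ρ A₀ = A, ρ H₀ = H at a1' a2' a3' a4'
    have a5 := fpf_of_count a1' f3
    have a6 : A ^ r = 1 := by
      simpa using (a1'.pow_eq_smul_iff r 1).2 fun a ha => by
        simpa using hs a (Multiset.mem_of_mem_filter ha)
    have a7 : ∀ x, A *ᵥ (A *ᵥ x) = x → x = 0 := fun x hx =>
      fpf_of_count (a1'.pow 2) (Multiset.count_eq_zero.2 fun h7 => by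
        obtain ⟨a, ha, h8⟩ := Multiset.mem_map.1 h7
        exact (Multiset.mem_filter.1 ha).2 ((f2 a ha).2 h8)) x (by
          rwa [pow_two, ← mulVec_mulVec])
    obtain ⟨Q', hQ', a8⟩ := exists_quad_of_alt a2' a3' a4' a7
    let A' : OG Q' := ⟨glEquiv _ F (isUnit_of_isom a2' a4').unit, a8⟩
    have a9 : A' ^ r = 1 := OG.ext' fun x => by
      rw [OG.pow_apply]
      change (Matrix.toLin' A ^ r) x = x
      rw [← Matrix.toLin'_pow, a6]; simp
    have c1 := even_card_of_altM a2' a3'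
    have c2 := a1'.card_eq
    have c3 : s'.card + s.count 1 = Fintype.card ι := by
      rw [← h1]; conv_rhs => rw [hs', Multiset.card_add, Multiset.card_replicate]
    obtain ⟨φ, hφ⟩ : ∃ φ : _ →ₗ[F] (ι → F), ∀ x, Q (φ x) = Q' x := by
      by_cases h0 : s.count 1 = 0
      · obtain ⟨e, he⟩ := hP' _ Q' A' hQ' (by omega) c1 a9 a5 (h6 h0)
        exact ⟨e, he⟩
      · exact exists_embed hQ hQ' (by simpa using c1) (by simp only [finrank_fintype_fun_eq_card]; omega)
    let D₀ := embedDec φ hφ hQ'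
    have c4 : finrank F (perp Q (LinearMap.range φ)) = s.count 1 := by
      have := D₀.finrank_eq
      simp only [finrank_fintype_fun_eq_card] at this
      omega
    let b := (finBasisOfFinrankEq F _ c4).equivFun
    refine ⟨(toOG h).symm (D₀.homL A'), ?_⟩
    have := isDg_fromBlocks a1' (isDg_one (ι := Fin (s.count 1)) D.ε)
    rw [Fintype.card_fin, ← hs'] at this
    refine isDg_of_equiv this ((LinearEquiv.sumArrowLequivProdArrow _ _ F F).trans
      (((LinearEquiv.refl F _).prodCongr b.symm).trans D₀.e)) fun y => ?_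
    refine Eq.trans ?_ (toOG_symm_mulVec h (D₀.homL A') _).symm
    simp only [LinearEquiv.trans_apply, LinearEquiv.prodCongr_apply, ODec.homL_apply,
      fromBlocks_mulVec, zero_mulVec, add_zero, zero_add, one_mulVec]
    rfl

/-- the arithmetic set-up -/
lemma exists_unit_ord [Fintype F] {r i t : ℕ} [Fact r.Prime] (hr2 : r ≠ 2) (hrF : (r : F) ≠ 0)
    (hi : i = orderOf (Fintype.card F : ZMod r)) (ht : t * i = r - 1) :
    ∃ u v : (ZMod r)ˣ, (u : ZMod r) = Fintype.card F ∧ (v = u ∨ v = -u) ∧ u ∈ zpowers v ∧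
      -1 ∈ zpowers v ∧ 0 < i ∧ (2 : ZMod r) ≠ 0 ∧
      (Odd i → orderOf v = 2 * i ∧ (r - 1) / orderOf v = t / 2) ∧
      (¬ Odd i → orderOf v = i ∧ (r - 1) / orderOf v = t ∧
        (Fintype.card F : ZMod r) ^ (i / 2) = -1) := by
  have hr : r.Prime := Fact.out
  let u : (ZMod r)ˣ := Units.mk0 _ (card_cast_ne_zero hr hrF)
  have hu : orderOf u = i := by rw [hi, ← orderOf_units]; rfl
  have hi0 : 0 < i := hu ▸ orderOf_pos u
  have h2 : (2 : ZMod r) ≠ 0 := fun h => hr2 ((Nat.prime_dvd_prime_iff_eq hr Nat.prime_two).1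
    ((ZMod.natCast_eq_zero_iff 2 r).1 (by exact_mod_cast h)))
  by_cases h : Odd i
  · have h5 : (-u) ^ i = -1 := by rw [h.neg_pow, ← hu, pow_orderOf_eq_one]
    refine ⟨u, -u, rfl, .inr rfl,
      ⟨(i + 1 : ℕ), by simp only [zpow_natCast]; rw [pow_succ, h5]; simp⟩,
      ⟨(i : ℕ), by simp only [zpow_natCast]; exact h5⟩, hi0, h2, fun _ => ?_, fun h' => absurd h h'⟩
    rw [orderOf_neg_units h2, hu, if_pos h, ← ht, Nat.mul_div_mul_right _ _ hi0]
    exact ⟨rfl, rfl⟩
  · have h5 := neg_one_mem_zpowers (hu ▸ Nat.not_odd_iff_even.1 h)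
    refine ⟨u, u, rfl, .inl rfl, mem_zpowers u, ⟨(orderOf u / 2 : ℕ), by
      simp only [zpow_natCast]; exact h5⟩, hi0, h2, fun h' => absurd h' h, fun _ => ?_⟩
    rw [hu] at h5 ⊢
    exact ⟨rfl, by rw [← ht, Nat.mul_div_cancel _ hi0], congrArg Units.val h5⟩

end CfsgH8
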