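import Cfsg.Agent.H8.F2

set_option autoImplicit false

namespace CfsgH8

open QuadraticMap Module

lemma gs_perp2 {V : Type*} [AddCommGroup V] [Module (ZMod 2) V] [Fintype V]
    {Q : QuadraticForm (ZMod 2) V} (hQ : ND Q) {e f : V} (he : Q e = 0) (hf : Q f = 0)
    (h : polar Q e f = 1) [Fintype (perp2 Q e f)] : gs Q = 2 * gs (res Q (perp2 Q e f)) := by
  have := Fintype.ofFinite (Submodule.span (ZMod 2) {e, f})
  let D := perpDec (span_inf_perp2 he hf h)
  have h1 := D.finrank_eq
  have h2 := finrank_perp2 hQ he h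
  rw [D.gs_eq]
  rcases gs_eq_or (D.nd_left hQ) (m := 1) (by simp only [perp2] at h2; omega) with h3 | h3
  · rw [h3.2]; rfl
  · have he0 : (⟨e, Submodule.subset_span (by simp)⟩ : Submodule.span (ZMod 2) {e, f}) ≠ 0 :=
      fun h0 => by simp [show e = 0 from congrArg Subtype.val h0] at h
    obtain ⟨W, h4, h5⟩ := h3.2.1.symm.exists_TS (TS.span_singleton (u := ⟨e, _⟩) he)
    have := finrank_TS_QM aniso_one_one h4
    rw [h5, finrank_span_singleton he0] at this
    omega

/-- the second elementary symmetric function as a quadratic form -/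
def QE (n : ℕ) : QuadraticForm (ZMod 2) (Fin n → ZMod 2) :=
  ∑ i, ∑ j, if i < j then proj i j else 0

lemma QE_apply {n : ℕ} (v : Fin n → ZMod 2) :
    QE n v = ∑ i, ∑ j, if i < j then v i * v j else 0 := by
  simp only [QE, sum_apply]
  refine Finset.sum_congr rfl fun i _ => Finset.sum_congr rfl fun j _ => ?_
  split_ifs <;> simp

lemma QE_cons {n : ℕ} (a : ZMod 2) (v : Fin n → ZMod 2) :
    QE (n + 1) (Fin.cons a v) = a * ∑ i, v i + QE n v := by
  simp [QE_apply, Fin.sum_univ_succ, Finset.mul_sum]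

lemma consEquiv_eq {n : ℕ} (a : ZMod 2) (v : Fin n → ZMod 2) :
    (Fin.consEquiv fun _ => ZMod 2) (a, v) = Fin.cons a v := rfl

lemma polar_QE {n : ℕ} (u v : Fin n → ZMod 2) :
    polar (QE n) u v = (∑ i, u i) * (∑ i, v i) - ∑ i, u i * v i := by
  induction n with
  | zero => simp [polar, QE_apply]
  | succ n ih =>
    obtain ⟨⟨a, u⟩, rfl⟩ := (Fin.consEquiv fun _ => ZMod 2).surjective u
    obtain ⟨⟨b, v⟩, rfl⟩ := (Fin.consEquiv fun _ => ZMod 2).surjective v
    have := ih u v
    have e : (Fin.cons a u + Fin.cons b v : Fin (n + 1) → ZMod 2) = Fin.cons (a + b) (u + v) := by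
      ext i; cases i using Fin.cases <;> simp
    simp only [polar, consEquiv_eq, e, QE_cons, Fin.sum_univ_succ, Fin.cons_zero,
      Fin.cons_succ, Pi.add_apply, Finset.sum_add_distrib] at this ⊢
    linear_combination this

lemma QE_single {n : ℕ} (i : Fin n) : QE n (Pi.single i 1) = 0 := by
  rw [QE_apply]
  refine Finset.sum_eq_zero fun j _ => Finset.sum_eq_zero fun k _ => ?_
  split_ifs with h
  · rcases eq_or_ne j i with rfl | h1
    · simp [h.ne']
    · simp [h1]
  · rfl

lemma ND_QE {n : ℕ} (hn : Even n) : ND (QE n) := ND.of_forall fun x hx => by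
  have h1 : ∀ i, x i = ∑ i, x i := fun i => by
    have := hx (Pi.single i 1)
    simp only [polar_QE, Pi.single_apply] at this
    simpa [sub_eq_zero, eq_comm] using this
  have h2 : ∑ i, x i = 0 := by
    rw [Finset.sum_congr rfl fun i _ => h1 i]
    simp [(ZMod.natCast_eq_zero_iff_even).2 hn]
  exact funext fun i => (h1 i).trans h2

lemma gs_QE_aux (n : ℕ) : gs (QE (n + 1)) = gs (QE n) + ∑ v, psi (QE n v + ∑ i, v i) ∧
    ∑ v, psi (QE (n + 1) v + ∑ i, v i) = ∑ v, psi (QE n v + ∑ i, v i) - gs (QE n) := by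
  have h : ∀ f : ZMod 2 → ℤ, ∑ a, f a = f 0 + f 1 := fun f => Fin.sum_univ_two f
  constructor
  · rw [gs, ← (Fin.consEquiv fun _ => ZMod 2).sum_comp, Fintype.sum_prod_type, h]
    simp [consEquiv_eq, QE_cons, gs, add_comm]
  · rw [← (Fin.consEquiv fun _ => ZMod 2).sum_comp, Fintype.sum_prod_type, h, gs, sub_eq_add_neg,
      ← Finset.sum_neg_distrib]
    simp only [consEquiv_eq, QE_cons, Fin.sum_univ_succ, Fin.cons_zero, Fin.cons_succ,
      zero_mul, zero_add, one_mul]
    congr 1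
    refine Finset.sum_congr rfl fun v _ => ?_
    generalize QE n v = a
    generalize ∑ i, v i = b
    revert a b; decide

lemma gs_QE (k : ℕ) : gs (QE (4 * k)) = (-4) ^ k ∧
    ∑ v, psi (QE (4 * k) v + ∑ i, v i) = (-4) ^ k := by
  induction k with
  | zero => exact ⟨rfl, rfl⟩
  | succ k ih =>
    have h1 := gs_QE_aux (4 * k)
    have h2 := gs_QE_aux (4 * k + 1)
    have h3 := gs_QE_aux (4 * k + 1 + 1)
    have h4 := gs_QE_aux (4 * k + 1 + 1 + 1)
    rw [show 4 * (k + 1) = 4 * k + 1 + 1 + 1 + 1 by ring, pow_succ]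
    omega

lemma QE_one (k : ℕ) : QE (4 * k) 1 = 0 := by
  have h : ∀ n, QE (n + 1) 1 = n + QE n 1 := fun n => by
    rw [show (1 : Fin (n + 1) → ZMod 2) = Fin.cons 1 1 from funext (Fin.cases rfl fun _ => rfl),
      QE_cons]
    simp
  induction k with
  | zero => rfl
  | succ k ih =>
    rw [show 4 * (k + 1) = 4 * k + 3 + 1 by ring, h, h, h, h, ih]
    push_cast
    linear_combination (8 * k + 3) * CharTwo.two_eq_zero (R := ZMod 2)

/-- the permutation representation -/
def permO (n : ℕ) : Equiv.Perm (Fin n) →* OG (QE n) where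
  toFun σ := ⟨LinearEquiv.funCongrLeft (ZMod 2) (ZMod 2) σ⁻¹, fun x =>
    quad_ext_span (Q := (QE n).comp (LinearEquiv.funCongrLeft (ZMod 2) (ZMod 2) σ⁻¹).toLinearMap)
      (s := Set.range (Pi.basisFun (ZMod 2) (Fin n))) (by
        rintro _ ⟨i, rfl⟩
        rw [Pi.basisFun_apply, QE_single, ← QE_single (σ i)]
        refine congrArg (QE n) (funext fun j => ?_)
        simp [Pi.single_apply, Equiv.symm_apply_eq]) (fun x _ y _ => by
        change polar (QE n) (x ∘ ⇑σ⁻¹) (y ∘ ⇑σ⁻¹) = _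
        simp only [polar_QE, Function.comp_apply, Equiv.sum_comp σ⁻¹ x, Equiv.sum_comp σ⁻¹ y,
          Equiv.sum_comp σ⁻¹ fun i => x i * y i]) (by simp)⟩
  map_one' := rfl
  map_mul' _ _ := rfl

lemma permO_apply {n : ℕ} (σ : Equiv.Perm (Fin n)) (x : Fin n → ZMod 2) (i : Fin n) :
    (permO n σ).1 x i = x (σ⁻¹ i) := rfl

lemma permO_swap {n : ℕ} {i j : Fin n} (h : i ≠ j) : QE n (Pi.single i 1 + Pi.single j 1) = 1 ∧
    permO n (Equiv.swap i j) = refl (QE n) (Pi.single i 1 + Pi.single j 1) := by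
  have h1 : QE n (Pi.single i 1 + Pi.single j 1) = 1 := by
    simp [Q_add, QE_single, polar_QE, Pi.single_apply, h.symm]
  refine ⟨h1, OG.ext' fun x => funext fun k => ?_⟩
  have h2 : polar (QE n) (Pi.single i 1 + Pi.single j 1) x = x i + x j := by
    simp [polar_QE, Pi.single_apply]
    linear_combination (∑ i, x i - x i - x j) * CharTwo.two_eq_zero (R := ZMod 2)
  rw [permO_apply, refl_apply, h1, h2, Equiv.swap_inv, Equiv.swap_apply_def]
  simp only [Pi.sub_apply, Pi.smul_apply, Pi.add_apply, Pi.single_apply]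
  split_ifs <;> simp_all

theorem exists_symO (k : ℕ) : ∃ (W : Submodule (ZMod 2) (Fin (4 * k + 8) → ZMod 2))
    (_ : Fintype W) (φ : Equiv.Perm (Fin (4 * k + 8)) →* OG (res (QE _) W)),
    Function.Injective φ ∧ ND (res (QE _) W) ∧ finrank (ZMod 2) W = 4 * k + 6 ∧
      2 * gs (res (QE _) W) = (-4) ^ (k + 2) ∧ (k = 0 → Function.Surjective φ) := by
  have hn : ND (QE (4 * k + 8)) := ND_QE ⟨2 * k + 4, by ring⟩
  have hp : ∀ x, polar (QE (4 * k + 8)) 1 x = ∑ i, x i := fun x => by
    simp [polar_QE]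
    linear_combination ((2 * k + 4) * ∑ i, x i - ∑ i, x i) * CharTwo.two_eq_zero (R := ZMod 2)
  have he : QE (4 * k + 8) 1 = 0 := QE_one (k + 2)
  have hf := QE_single (0 : Fin (4 * k + 8))
  have h : polar (QE (4 * k + 8)) 1 (Pi.single 0 1) = 1 := by simp [hp]
  have := Fintype.ofFinite (perp2 (QE (4 * k + 8)) 1 (Pi.single 0 1))
  obtain ⟨φ, hφ⟩ := exists_stab_hom (permO _) he hf h fun _ => rfl
  have h1 := finrank_perp2 hn he h
  have h2 := nd_perp2 hn he hf h
  refine ⟨_, this, φ, (injective_iff_map_eq_one φ).2 fun σ hσ => ?_, h2, by simpa using h1,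
    by rw [← gs_perp2 hn he hf h]; exact (gs_QE (k + 2)).1, ?_⟩
  · have h3 : ∀ i j : Fin (4 * k + 8), ∃ c : ZMod 2, ∀ l, (if σ⁻¹ l = i then 1 else 0) +
        (if σ⁻¹ l = j then 1 else 0) = (if l = i then 1 else 0) + (if l = j then 1 else 0) + c := by
      intro i j
      have h4 := hφ σ ⟨_, proj_mem_perp2 he hf h (Pi.single i 1 + Pi.single j 1)⟩
      rw [hσ, OG.one_apply] at h4
      simp only [hp, Pi.add_apply, Finset.sum_add_distrib, Finset.sum_pi_single', Finset.mem_univ,
        if_true, CharTwo.add_self_eq_zero, zero_smul, sub_zero] at h4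
      generalize polar (QE _) _ ((permO _ σ).1 _) = c at h4
      refine ⟨c, fun l => ?_⟩
      have := congrFun h4 l
      simp only [Pi.sub_apply, Pi.smul_apply, permO_apply, Pi.add_apply, Pi.single_apply,
        Pi.one_apply] at this
      linear_combination -this
    refine inv_eq_one.1 (Equiv.ext fun l => ?_)
    generalize σ⁻¹ = τ at h3
    by_contra h4
    obtain ⟨j, hj⟩ : ∃ j, j ∉ ({l, τ l} : Finset _) :=
      Finset.exists_mem_notMem_of_card_lt_card (s := {l, τ l}) (t := Finset.univ)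
        (Finset.card_le_two.trans_lt (by simp)) |>.imp fun _ h => h.2
    obtain ⟨i, hi⟩ : ∃ i, i ∉ ({l, j, τ⁻¹ l, τ⁻¹ j} : Finset _) :=
      Finset.exists_mem_notMem_of_card_lt_card (s := {l, j, τ⁻¹ l, τ⁻¹ j}) (t := Finset.univ)
        (Finset.card_le_four.trans_lt (by simp)) |>.imp fun _ h => h.2
    obtain ⟨c, hc⟩ := h3 l j
    have h5 := hc l
    have h6 := hc i
    simp only [Finset.mem_insert, Finset.mem_singleton, not_or, Equiv.Perm.eq_inv_iff_eq] at hi hj
    simp only [Equiv.Perm.one_apply] at h4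
    simp [hi, h4, Ne.symm hj.1, Ne.symm hj.2] at h5 h6
    simp [← h6] at h5
  · rintro rfl g
    refine mem_of_refl h2 (good_of_finrank (by simp at h1 ⊢; omega)) φ.range (fun v hv => ?_) g
    have h3 : ∀ v : Fin 8 → ZMod 2, ∑ i, v i = 0 →
        (∑ i, ∑ j, if i < j then v i * v j else 0) ≠ 0 → ∃ i j : Fin 8, ∃ c : ZMod 2, i ≠ j ∧
          ∀ l, v l = (if l = i then 1 else 0) + (if l = j then 1 else 0) + c := by decide +kernel
    obtain ⟨i, j, c, hij, h4⟩ := h3 v.1 (by rw [← hp]; exact (mem_perp2.1 v.2).1)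
      (by rw [← QE_apply]; exact hv)
    have h5 : v.1 = Pi.single i 1 + Pi.single j 1 + c • 1 := funext fun l => by
      simp [h4, Pi.single_apply]
    obtain ⟨h6, h7⟩ := permO_swap (n := 4 * 0 + 8) hij
    refine ⟨Equiv.swap i j, OG.ext' fun x => Subtype.ext ?_⟩
    have h8 := (mem_perp2.1 v.2).2
    have h9 : res (QE _) _ v = 1 := (by decide : ∀ a : ZMod 2, a ≠ 0 → a = 1) _ hv
    rw [hφ, h7, refl_apply, refl_apply, h6, h9, Submodule.coe_sub, Submodule.coe_smul, polar_res,
      h5]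
    rw [h5] at h8
    generalize (Pi.single i 1 + Pi.single j 1 : Fin (4 * 0 + 8) → ZMod 2) = u at h8
    rw [polar_add_right, polar_sr, pcomm _ 1, h] at h8
    rw [polar_sub_right, polar_sr, polar_add_left, polar_sl, (mem_perp2.1 x.2).1,
      (mem_perp2.1 x.2).2, show c = -polar (QE _) (Pi.single 0 1) u by linear_combination h8]
    module

end CfsgH8
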