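import Cfsg.Agent.H8.Forms
import Cfsg.Agent.H7.Polar
import Cfsg.Prelude.Def_SporadicB

set_option autoImplicit false

namespace CfsgH8

open QuadraticMap Module

theorem threeT_of {G : Type*} [Group G] {D : Set G} (h1 : ∀ d ∈ D, d ≠ 1 ∧ d * d = 1)
    (h2 : ∀ d ∈ D, ∀ e ∈ D, d * e = e * d ∨ d * e * d = e * d * e)
    (h3 : ∀ d ∈ D, ∀ g, g * d * g⁻¹ ∈ D) (h4 : ∃ d ∈ D, ∀ e ∈ D, IsConj d e)
    (h5 : Subgroup.closure D = ⊤) : Cfsg.IsThreeTranspositionClass D := by
  refine ⟨⟨fun d hd => orderOf_eq_prime (by rw [pow_two, (h1 d hd).2]) (h1 d hd).1,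
    fun d hd e he => (h2 d hd e he).imp (fun h => ?_) fun h => ?_⟩, ?_, h5⟩
  · rw [pow_two, mul_assoc, ← mul_assoc e, ← h, mul_assoc, (h1 e he).2, mul_one, (h1 d hd).2]
  · rw [show (d * e) ^ 3 = (d * e * d) * (e * d * e) by simp only [pow_succ, mul_assoc]; simp, ← h,
      show d * e * d * (d * e * d) = d * (e * (d * d) * e) * d by simp only [mul_assoc],
      (h1 d hd).2, mul_one, (h1 e he).2, mul_one, (h1 d hd).2]
  · obtain ⟨d, hd, h⟩ := h4
    refine ⟨d, hd, Set.ext fun e => ⟨h e, fun he => ?_⟩⟩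
    obtain ⟨g, rfl⟩ := isConj_iff.1 he
    exact h3 d hd g

theorem threeT_comap {G H : Type*} [Group G] [Group H] (e : G ≃* H) {D : Set H}
    (h : Cfsg.IsThreeTranspositionClass D) : Cfsg.IsThreeTranspositionClass (e ⁻¹' D) := by
  obtain ⟨⟨h1, h2⟩, ⟨d, hd, h3⟩, h4⟩ := h
  refine ⟨⟨fun x hx => by rw [← e.orderOf_eq, h1 _ hx], fun x hx y hy => ?_⟩,
    ⟨e.symm d, by simpa using hd, Set.ext fun x => ?_⟩, ?_⟩
  · refine (h2 _ hx _ hy).imp (fun h => e.injective ?_) fun h => e.injective ?_ <;> simpa using h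
  · rw [Set.mem_preimage, h3]
    exact ⟨fun h => by simpa [conjugatesOf] using e.symm.toMonoidHom.map_isConj h,
      fun h => by simpa [conjugatesOf] using e.toMonoidHom.map_isConj h⟩
  · apply Subgroup.map_injective (f := e.toMonoidHom) e.injective
    rw [MonoidHom.map_closure, Subgroup.map_top_of_surjective _ e.surjective, ← h4]
    exact congrArg _ (Set.image_preimage_eq D e.surjective)

section orth
variable {F V : Type*} [Field F] [AddCommGroup V] [Module F V] {Q : QuadraticForm F V}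
  [FiniteDimensional F V]

lemma finrank_movS_refl (hQ : ND Q) {v : V} (hv : Q v ≠ 0) : finrank F (movS (refl Q v)) = 1 := by
  have := finrank_movS_refl_mul hQ 1 hv
  rw [mul_one, movS_one, finrank_bot] at this
  omega

lemma finrank_movS_eq_one_iff (hQ : ND Q) (g : OG Q) :
    finrank F (movS g) = 1 ↔ ∃ v, Q v ≠ 0 ∧ g = refl Q v := by
  refine ⟨fun h => ?_, fun ⟨v, hv, h⟩ => h ▸ finrank_movS_refl hQ hv⟩
  obtain ⟨⟨v, hv⟩, hv0, hs⟩ := finrank_eq_one_iff'.1 h
  have hQv : Q v ≠ 0 := fun h0 => by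
    obtain ⟨y, hy⟩ := mem_movS.1 hv
    have h1 : polar Q y v = 0 := by
      have := OG.map_Q g y
      rw [show g.1 y = y + v by rw [← hy]; abel, Q_add, h0] at this
      linear_combination this
    have h2 : y ∈ fixS g := by
      rw [← perp_movS hQ, mem_perp']
      intro u hu
      obtain ⟨c, hc⟩ := hs ⟨u, hu⟩
      obtain rfl : c • v = u := congrArg Subtype.val hc
      rw [polar_sr, h1, mul_zero]
    rw [mem_fixS.1 h2, sub_self] at hy
    exact hv0 (Subtype.ext hy.symm)
  have h1 := finrank_fixS_refl_mul_of_mem hQv hv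
  have h2 := finrank_movS_add g
  have h3 : fixS (refl Q v * g) = ⊤ := Submodule.eq_top_of_finrank_eq (by omega)
  refine ⟨v, hQv, ?_⟩
  rw [← refl_inv, eq_comm, inv_eq_iff_mul_eq_one]
  exact OG.ext' fun x => mem_fixS.1 (h3 ▸ trivial)

theorem threeT_OG (hQ : ND Q) (hG : Good Q) [Nontrivial V] (hF : ∀ a : F, a ≠ 0 → a = 1) :
    Cfsg.IsThreeTranspositionClass {g : OG Q | finrank F (movS g) = 1} := by
  simp only [finrank_movS_eq_one_iff hQ]
  refine threeT_of ?_ ?_ ?_ ?_ ?_
  · rintro _ ⟨v, hv, rfl⟩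
    refine ⟨fun h => ?_, refl_mul_self v⟩
    have := finrank_movS_refl hQ hv
    rw [h, movS_one, finrank_bot] at this
    omega
  · rintro _ ⟨v, hv, rfl⟩ _ ⟨w, hw, rfl⟩
    by_cases h : polar Q v w = 0
    · left
      rw [← mul_inv_eq_iff_eq_mul, refl_conj, refl_of_perp h]
    · right
      have h1 := refl_conj (refl Q v) w
      have h2 := refl_conj (refl Q w) v
      rw [refl_inv] at h1 h2
      rw [h1, h2, refl_apply, refl_apply, pcomm w v, hF _ h, hF _ hv, hF _ hw, ← refl_neg]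
      simp
  · rintro _ ⟨v, hv, rfl⟩ g
    exact ⟨_, by simpa using hv, refl_conj g v⟩
  · obtain ⟨v, hv⟩ : ∃ v, Q v ≠ 0 := by
      by_contra h
      push Not at h
      obtain ⟨x, hx⟩ := exists_ne (0 : V)
      exact hx (hQ.eq_zero fun y => by simp [polar, h])
    refine ⟨_, ⟨v, hv, rfl⟩, ?_⟩
    rintro _ ⟨w, hw, rfl⟩
    obtain ⟨g, rfl⟩ := witt_vec hQ (x := v) (y := w) (fun h => hv (by simp [h]))
      (fun h => hw (by simp [h])) (by rw [hF _ hv, hF _ hw])
    exact isConj_iff.2 ⟨g, refl_conj g v⟩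
  · exact eq_top_iff.2 fun g _ => mem_of_refl hQ hG _
      (fun v hv => Subgroup.subset_closure (by exact ⟨v, hv, rfl⟩)) g

end orth

section polar
open CfsgH7

variable {K V G : Type*} [Field K] [AddCommGroup V] [Module K V] [Group G] {P : Polar K V G}

/-- the set of transvections with parameter one -/
def TvD (P : Polar K V G) : Set G := {g | ∃ x, P.Iso x ∧ P.IsT x 1 g}

lemma two_of_fix (hF : ∀ a : K, P.σ a = a → a ≠ 0 → a = 1) : (2 : K) = 0 := by
  by_contra h
  have := hF 2 (map_ofNat _ 2) h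
  exact one_ne_zero (α := K) (by linear_combination this)

lemma herm_of_fix (hF : ∀ a : K, P.σ a = a → a ≠ 0 → a = 1) (u v : V) :
    P.B v u = P.σ (P.B u v) := by
  rw [P.skew]; linear_combination (-P.σ (P.B u v)) * two_of_fix hF

lemma norm_of_fix (hF : ∀ a : K, P.σ a = a → a ≠ 0 → a = 1) {c : K} (hc : c ≠ 0) :
    c * P.σ c = 1 :=
  hF _ (by simp [mul_comm]) (mul_ne_zero hc (by simpa using hc))

theorem threeT_polar (hF : ∀ a : K, P.σ a = a → a ≠ 0 → a = 1)
    (h : Subgroup.closure (TvD P) = ⊤) : Cfsg.IsThreeTranspositionClass (TvD P) := by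
  have h2 := two_of_fix hF
  have hsq : ∀ d ∈ TvD P, d * d = 1 := by
    rintro d ⟨x, hx, hd⟩
    have := hd.mul hx.2 hd
    rw [one_add_one_eq_two, h2] at this
    exact this.unique (Polar.isT_zero x)
  have hpa : ∀ {x y : V} {d : G}, Pa K x y → P.IsT y 1 d → P.IsT x 1 d := by
    rintro x _ d ⟨k, hk, rfl⟩ hd
    rwa [Polar.isT_smul, one_mul, norm_of_fix hF hk] at hd
  refine threeT_of (fun d hd => ⟨?_, hsq d hd⟩) ?_ ?_ ?_ h
  · obtain ⟨x, hx, hd⟩ := hd
    exact hd.ne_one hx.1 one_ne_zero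
  · rintro d hd' e he'
    obtain ⟨x, hx, hd⟩ := id hd'
    obtain ⟨y, hy, he⟩ := id he'
    have h3 := he.conj d
    by_cases hxy : P.B y x = 0
    · left
      rw [hd y, hxy, mul_zero, zero_smul, add_zero] at h3
      rw [← mul_inv_eq_iff_eq_mul, h3.unique he]
    · right
      have h4 := hd.conj e
      rw [inv_eq_of_mul_eq_one_right (hsq d hd')] at h3
      rw [inv_eq_of_mul_eq_one_right (hsq e he')] at h4
      refine h3.unique (hpa ⟨P.B x y, fun h => hxy (P.perp_symm h), ?_⟩ h4)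
      rw [hd y, he x, one_mul, one_mul, smul_add, smul_smul, herm_of_fix hF x y,
        norm_of_fix hF fun h => hxy (P.perp_symm h), one_smul, add_comm]
  · rintro d ⟨x, hx, hd⟩ g
    exact ⟨_, hx.map g, hd.conj g⟩
  · obtain ⟨d, hd⟩ := Polar.exists_isT (P := P) Polar.iso_e (a := 1) (by simp)
    refine ⟨d, ⟨_, Polar.iso_e, hd⟩, ?_⟩
    rintro t ⟨x, hx, ht⟩
    obtain ⟨g, hg⟩ := Polar.exists_map_e hx
    exact isConj_iff.2 ⟨g, (hd.conj g).unique (hpa hg ht)⟩

/-- rank one maps -/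
def rk (P : Polar K V G) (x : V) (a : K) : Module.End K V := LinearMap.transvection (a • P.Bl x) x

lemma rk_apply (x : V) (a : K) (v : V) : rk P x a v = v + (a * P.B v x) • x := rfl

lemma rk_mul (x : V) (a b : K) : rk P x a * rk P x b = rk P x (a + b + a * b * P.B x x) :=
  LinearMap.ext fun v => by
    simp only [Module.End.mul_apply, rk_apply, P.add_left, P.smul_left]
    module

lemma rk_zero (x : V) : rk P x 0 = 1 := LinearMap.ext fun v => by simp [rk_apply]

lemma det_rk (x : V) (a : K) : LinearMap.det (rk P x a) = 1 + a * P.B x x := by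
  have := P.fin
  simp [rk]

lemma rk_isom {x : V} {a : K} (h : a - P.σ a - a * P.σ a * P.B x x = 0) (u v : V) :
    P.B (rk P x a u) (rk P x a v) = P.B u v := by
  simp only [rk_apply, P.add_left, P.add_right, P.smul_left, P.smul_right, _root_.map_mul,
    P.skew v x]
  linear_combination (-P.B u x * P.σ (P.B v x)) * h

lemma mem_TvD_of_rank (hF : ∀ a : K, P.σ a = a → a ≠ 0 → a = 1) {g : G}
    (hd : LinearMap.det (P.ρ g) = 1) (h : finrank K (LinearMap.range (P.ρ g - 1)) = 1) :
    g ∈ TvD P := by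
  obtain ⟨⟨x, hx⟩, hx0, hs⟩ := finrank_eq_one_iff'.1 h
  have hx0' : x ≠ 0 := fun h => hx0 (Subtype.ext h)
  obtain ⟨w, hw⟩ := hx
  have hw' : P.ρ g w = w + x := by rw [← hw]; simp
  have h1 : ∀ v, (P.B x w + P.B x x) • P.ρ g v = (P.B x w + P.B x x) • v - P.B v x • x := by
    intro v
    obtain ⟨c, hc⟩ := hs ⟨_, v, rfl⟩
    have hc' : P.ρ g v = v + c • x := by
      rw [show c • x = (P.ρ g - 1) v from congrArg Subtype.val hc]; simp
    have := P.isom g v w
    rw [hc', hw'] at this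
    simp only [P.add_left, P.add_right, P.smul_left] at this
    rw [hc', show P.B v x = -c * (P.B x w + P.B x x) by linear_combination this]
    module
  have h2 : P.B x w + P.B x x ≠ 0 := fun h0 => by
    obtain ⟨v, hv⟩ := P.exists_B_eq hx0' 1
    have := h1 v
    rw [h0, hv] at this
    exact hx0' (by simpa using this)
  have h3 : P.ρ g = rk P x (-(P.B x w + P.B x x)⁻¹) := LinearMap.ext fun v => by
    apply smul_right_injective V h2
    simp only [h1, rk_apply, smul_add, smul_smul]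
    rw [neg_mul, mul_neg, mul_inv_cancel_left₀ h2, neg_smul, sub_eq_add_neg]
  rw [h3, det_rk] at hd
  have h4 : P.B x x = 0 := by simpa [h2] using hd
  rw [h4, add_zero] at h2 h3
  have h5 := P.isom g w w
  rw [hw'] at h5
  simp only [P.add_left, P.add_right, h4, P.skew x w] at h5
  refine ⟨x, ⟨hx0', h4⟩, fun v => ?_⟩
  rw [h3, rk_apply, hF (-(P.B x w)⁻¹) (by
    rw [map_neg, map_inv₀, show P.σ (P.B x w) = P.B x w by linear_combination -h5]) (by simpa)]

lemma rank_of_mem_TvD {g : G} (h : g ∈ TvD P) : finrank K (LinearMap.range (P.ρ g - 1)) = 1 := by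
  obtain ⟨x, hx, h⟩ := h
  rw [← finrank_span_singleton (K := K) hx.1]
  refine congrArg (fun U : Submodule K V => finrank K U) (Submodule.ext fun y => ?_)
  rw [Submodule.mem_span_singleton]
  constructor
  · rintro ⟨v, rfl⟩
    exact ⟨P.B v x, by simp [h v]⟩
  · rintro ⟨c, rfl⟩
    obtain ⟨v, hv⟩ := P.exists_B_eq hx.1 c
    exact ⟨v, by simp [h v, hv]⟩

lemma B_eq_zero_of_self {θ : K} (hθ : P.σ θ ≠ θ) {T : Module.End K V} {U : Submodule K V}
    (h : ∀ u ∈ U, P.B (T u) u = 0) {u v : V} (hu : u ∈ U) (hv : v ∈ U) : P.B (T u) v = 0 := by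
  have h1 := h _ (U.add_mem hu hv)
  have h2 := h _ (U.add_mem hu (U.smul_mem θ hv))
  simp only [map_add, map_smul, P.add_left, P.add_right, P.smul_left, P.smul_right, h u hu,
    h v hv] at h1 h2
  exact (mul_eq_zero.1 (show (P.σ θ - θ) * P.B (T u) v = 0 by
    linear_combination h2 - θ * h1)).resolve_left (sub_ne_zero.2 hθ)

/-- A unitary group is generated by its rank one elements. -/
theorem unitary_induction {θ : K} (hθ : P.σ θ ≠ θ) {p : Module.End K V → Prop} (h1 : p 1)
    (hs : ∀ x a T, a - P.σ a - a * P.σ a * P.B x x = 0 → p T → p (rk P x a * T))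
    (T : Module.End K V) (hT : ∀ u v, P.B (T u) (T v) = P.B u v) : p T := by
  have := P.fin
  induction hn : finrank K V - finrank K (LinearMap.ker (T - 1)) using Nat.strong_induction_on
    generalizing T with
  | _ n ih =>
  by_cases h : ∀ v, P.B (T v - v) v = 0
  · obtain rfl : T = 1 := LinearMap.ext fun v => sub_eq_zero.1 (P.nondeg _ fun w =>
      B_eq_zero_of_self hθ (T := T - 1) (U := ⊤) (fun u _ => h u) trivial trivial)
    exact h1
  push Not at h
  obtain ⟨v, hv⟩ := h
  have e1 : P.B (T v) (T v - v) = -P.B (T v - v) v := by simp [hT]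
  have e2 : P.B (T v - v) (T v - v) = -P.B (T v - v) v + P.σ (P.B (T v - v) v) := by
    rw [P.sub_left (T v) v (T v - v), e1, P.skew (T v - v) v]; ring
  have hv' : P.σ (P.B (T v - v) v) ≠ 0 := (map_ne_zero _).2 hv
  have ha : (P.B (T v - v) v)⁻¹ - P.σ (P.B (T v - v) v)⁻¹ -
      (P.B (T v - v) v)⁻¹ * P.σ (P.B (T v - v) v)⁻¹ * P.B (T v - v) (T v - v) = 0 := by
    rw [e2, map_inv₀]; field_simp; ring
  generalize hw : T v - v = w at *
  generalize ha' : (P.B w v)⁻¹ = a at ha
  have h2 : rk P w (-P.σ a) * rk P w a = 1 := by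
    rw [rk_mul, ← rk_zero (P := P) w]; congr 1; linear_combination ha
  have h3 : LinearMap.ker (T - 1) < LinearMap.ker (rk P w a * T - 1) := by
    refine lt_of_le_of_ne (fun y hy => ?_) fun e => ?_
    · rw [LinearMap.mem_ker, LinearMap.sub_apply, sub_eq_zero, Module.End.one_apply] at hy ⊢
      rw [Module.End.mul_apply, rk_apply, ← hw, P.sub_right, hT, hy, sub_self, mul_zero, zero_smul,
        add_zero]
    · have : v ∈ LinearMap.ker (rk P w a * T - 1) := by
        rw [LinearMap.mem_ker, LinearMap.sub_apply, Module.End.mul_apply, rk_apply, e1, ← ha',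
          mul_neg, inv_mul_cancel₀ hv, ← hw]
        simp
      rw [← e, LinearMap.mem_ker, LinearMap.sub_apply, Module.End.one_apply, hw] at this
      simp [this] at hv
  have h4 := Submodule.finrank_lt_finrank_of_lt h3
  have h5 := Submodule.finrank_le (LinearMap.ker (rk P w a * T - 1))
  have := hs w (-P.σ a) _ (by simp only [map_neg, P.σσ]; linear_combination ha)
    (ih _ (by omega) (rk P w a * T) (fun x y => by
      rw [Module.End.mul_apply, Module.End.mul_apply, rk_isom ha, hT]) rfl)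
  rwa [← mul_assoc, h2, one_mul] at this

lemma exists_perp_aniso {θ : K} (hθ : P.σ θ ≠ θ) (hn : 4 ≤ finrank K V) {v : V} (hv : P.B v v ≠ 0)
    (w : V) : ∃ u, P.B u v = 0 ∧ P.B u w = 0 ∧ P.B u u ≠ 0 := by
  have := P.fin
  by_contra h
  push Not at h
  let U := LinearMap.ker ((P.Bl v).prod (P.Bl w))
  have hU : ∀ u, u ∈ U ↔ P.B u v = 0 ∧ P.B u w = 0 := fun u => by simp [U]
  have h1 := LinearMap.finrank_range_add_finrank_ker ((P.Bl v).prod (P.Bl w))
  have h2 := Submodule.finrank_le (LinearMap.range ((P.Bl v).prod (P.Bl w)))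
  have h3 : U ≤ Submodule.span K {v, w} := fun u hu => by
    have := mem_span_of_iInf_ker_le_ker (L := ![P.Bl v, P.Bl w]) (K := P.Bl u) (fun y hy => by
      simp only [Submodule.mem_iInf, Fin.forall_fin_two] at hy
      exact B_eq_zero_of_self hθ (T := 1) (U := U) (fun y hy => h y ((hU y).1 hy).1 ((hU y).1 hy).2)
        ((hU y).2 hy) hu)
    rw [Matrix.range_cons, Matrix.range_cons, Matrix.range_empty, Set.union_empty,
      Set.singleton_union, Submodule.mem_span_pair] at this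
    obtain ⟨a, b, e⟩ := this
    refine Submodule.mem_span_pair.2 ⟨P.σ a, P.σ b, P.ext_left fun y => ?_⟩
    have := LinearMap.congr_fun e y
    simp only [LinearMap.add_apply, LinearMap.smul_apply, Polar.Bl_apply, smul_eq_mul] at this
    rw [P.skew y, P.skew y u, ← this]
    simp
  have h5 : finrank K (Submodule.span K {v, w}) ≤ 2 := by
    classical
    have := (finrank_span_finset_le_card (R := K) ({v, w} : Finset V)).trans Finset.card_le_two
    rwa [Set.finrank, Finset.coe_pair] at this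
  have h6 := Submodule.eq_of_le_of_finrank_le h3 (by simp at h2; simp only [U]; omega)
  exact hv ((hU v).1 (h6 ▸ Submodule.subset_span (by simp))).1

theorem closure_TvD_unitary (hF : ∀ a : K, P.σ a = a → a ≠ 0 → a = 1) {θ : K} (hθ : P.σ θ ≠ θ)
    (hn : 4 ≤ finrank K V) (hd : ∀ g, LinearMap.det (P.ρ g) = 1) :
    Subgroup.closure (TvD P) = ⊤ := by
  have h2 := two_of_fix hF
  have hone : ∀ v, P.B v v ≠ 0 → P.B v v = 1 := fun v => hF _ (herm_of_fix hF v v).symm
  have t1 : ∀ v w, P.B v v = 1 → P.B w w = 1 → P.B v w = 0 →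
      ∃ t ∈ Subgroup.closure (TvD P), P.ρ t v = w := fun v w hv hw h => by
    have hi : P.Iso (w - v) := ⟨fun e => by rw [sub_eq_zero.1 e, hv] at h; exact one_ne_zero h,
      by simp [hv, hw, h, P.perp_symm h, one_add_one_eq_two, h2]⟩
    obtain ⟨t, ht⟩ := Polar.exists_isT hi (a := 1) (by simp)
    refine ⟨t, Subgroup.subset_closure ⟨_, hi, ht⟩, ?_⟩
    rw [ht v, P.sub_right, h, hv, show (1 : K) * (0 - 1) = 1 by linear_combination -h2]
    simp
  have t2 : ∀ v w, P.B v v = 1 → P.B w w = 1 →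
      ∃ t ∈ Subgroup.closure (TvD P), P.ρ t v = w := fun v w hv hw => by
    obtain ⟨u, h3, h4, h5⟩ := exists_perp_aniso hθ hn (hv ▸ one_ne_zero) w
    obtain ⟨t, ht, e⟩ := t1 v u hv (hone u h5) (P.perp_symm h3)
    obtain ⟨s, hs, e'⟩ := t1 u w (hone u h5) hw h4
    exact ⟨s * t, mul_mem hs ht, by rw [P.ρ_mul, e, e']⟩
  have t3 : ∀ u : Module.End K V, (∀ x y, P.B (u x) (u y) = P.B x y) →
      ∀ h ∈ Subgroup.closure (TvD P), ∃ g ∈ Subgroup.closure (TvD P), P.ρ g * u = u * P.ρ h := by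
    intro u hu h hh
    induction hh using Subgroup.closure_induction with
    | mem h hh =>
      obtain ⟨x, hx, hh⟩ := hh
      have hi : P.Iso (u x) := ⟨fun e => hx.1 (P.nondeg _ fun y => by rw [← hu, e]; simp),
        by rw [hu, hx.2]⟩
      obtain ⟨t, ht⟩ := Polar.exists_isT hi (a := 1) (by simp)
      exact ⟨t, Subgroup.subset_closure ⟨_, hi, ht⟩, LinearMap.ext fun v => by
        simp [ht (u v), hh v, hu]⟩
    | one => exact ⟨1, one_mem _, by simp⟩
    | mul x y _ _ hx hy =>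
      obtain ⟨g, hg, e⟩ := hx
      obtain ⟨g', hg', e'⟩ := hy
      exact ⟨g * g', mul_mem hg hg', by
        rw [_root_.map_mul, _root_.map_mul, mul_assoc, e', ← mul_assoc, e, mul_assoc]⟩
    | inv x _ hx =>
      obtain ⟨g, hg, e⟩ := hx
      refine ⟨g⁻¹, inv_mem hg, LinearMap.ext fun v => ?_⟩
      have := LinearMap.congr_fun e (P.ρ x⁻¹ v)
      simp only [Module.End.mul_apply, Polar.ρ_apply_inv] at this ⊢
      rw [← this, Polar.ρ_inv_apply]
  obtain ⟨v, hv⟩ : ∃ v, P.B v v = 1 := by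
    by_contra h
    push Not at h
    have := B_eq_zero_of_self hθ (T := 1) (U := ⊤) (u := P.e) (v := P.f)
      (fun u _ => by_contra fun h' => h u (hone u h')) trivial trivial
    simp at this
  refine eq_top_iff.2 fun g _ => ?_
  obtain ⟨t, ht, d, e⟩ := unitary_induction hθ
    (p := fun T => ∃ t ∈ Subgroup.closure (TvD P), ∃ d, T = P.ρ t * rk P v d)
    ⟨1, one_mem _, 0, by simp [rk_zero]⟩ (by
      rintro x a _ ha ⟨t, ht, d, rfl⟩
      by_cases hx : P.B x x = 0
      · by_cases h0 : x = 0 ∨ a = 0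
        · refine ⟨t, ht, d, ?_⟩
          rw [show rk P x a = 1 from LinearMap.ext fun y => by
            rcases h0 with h0 | h0 <;> simp [rk_apply, h0], one_mul]
        push Not at h0
        obtain rfl := hF a (by rw [hx] at ha; linear_combination -ha) h0.2
        obtain ⟨s, hs⟩ := Polar.exists_isT (P := P) ⟨h0.1, hx⟩ (a := 1) (by simp)
        refine ⟨s * t, mul_mem (Subgroup.subset_closure ⟨x, ⟨h0.1, hx⟩, hs⟩) ht, d, ?_⟩
        rw [_root_.map_mul, mul_assoc, show P.ρ s = rk P x 1 from LinearMap.ext hs]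
      · obtain ⟨s, hs, rfl⟩ := t2 v x hv (hone x hx)
        rw [P.isom] at ha
        obtain ⟨g, hg, e⟩ := t3 _ (rk_isom ha) _ (mul_mem (inv_mem hs) ht)
        refine ⟨s * g, mul_mem hs hg, a + d + a * d * P.B v v, ?_⟩
        have e' : rk P (P.ρ s v) a * P.ρ s = P.ρ s * rk P v a := LinearMap.ext fun y => by
          simp [rk_apply]
        rw [← rk_mul, _root_.map_mul, mul_assoc, ← mul_assoc (P.ρ g), e, ← mul_assoc (P.ρ s),
          ← mul_assoc (P.ρ s), ← e', mul_assoc _ (P.ρ s), ← _root_.map_mul, mul_inv_cancel_left,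
          mul_assoc])
    (P.ρ g) (P.isom g)
  have h3 := hd g
  rw [e, _root_.map_mul, hd, det_rk, hv] at h3
  obtain rfl : d = 0 := by linear_combination h3
  rw [rk_zero, mul_one] at e
  exact P.inj e ▸ ht

end polar

end CfsgH8
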